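import Cfsg.Agent.Lib.Fusion.PrimeIndex
import Cfsg.Agent.Lib.Fusion.Chains
import Cfsg.Agent.Lib.Fusion.Stable
import Cfsg.Agent.Lib.Fusion.SylowIn
import Cfsg.Agent.Lib.Fusion.AdmSat
import Cfsg.Agent.Lib.Fusion.PowerIndexNormal
import Mathlib

/-! # Direct factors of a saturated fusion system -/

set_option autoImplicit false
set_option linter.unusedSectionVars false
set_option linter.unusedVariables false

namespace Cfsg.Agent.Lib.Fusion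

open Cfsg Cfsg.FusionSystem

variable {Ω : Type*} [Group Ω] {S : Subgroup Ω} {F : FusionSystem S} {p : ℕ} [Fact p.Prime]

/-- The data of a direct factorization of `S` by strongly closed subgroups. -/
structure DF (F : FusionSystem S) (S₁ S₂ : Subgroup Ω) : Prop where
  le₁ : S₁ ≤ S
  le₂ : S₂ ≤ S
  comm : ∀ a ∈ S₁, ∀ b ∈ S₂, a * b = b * a
  inf : S₁ ⊓ S₂ = ⊥
  sup : S₁ ⊔ S₂ = S
  sc₁ : F.StronglyClosed S₁
  sc₂ : F.StronglyClosed S₂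

variable {S₁ S₂ : Subgroup Ω}

theorem DF.le_norm (h : DF F S₁ S₂) : S₂ ≤ Subgroup.normalizer (S₁ : Set Ω) := by
  intro b hb
  rw [Subgroup.mem_normalizer_iff]
  intro x
  constructor
  · intro hx
    have : b * x * b⁻¹ = x := by rw [← h.comm x hx b hb]; simp
    rw [this]
    exact hx
  · intro hx
    have h2 : b * x * b⁻¹ ∈ S₁ := hx
    have h3 := h.comm _ h2 b hb
    have h4 : x = b * x * b⁻¹ := by
      have : b * x * b⁻¹ * b = b * (b * x * b⁻¹) := h3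
      have h5 : b * x * b⁻¹ * b = b * x := by group
      rw [h5] at this
      exact mul_left_cancel this
    rw [h4]
    exact h2

theorem DF.exists_mul (h : DF F S₁ S₂) {s : Ω} (hs : s ∈ S) : ∃ a ∈ S₁, ∃ b ∈ S₂, s = a * b :=
  exists_mul_of_mem_sup h.le_norm (by rw [h.sup]; exact hs)

theorem DF.eq_one_of_mem (h : DF F S₁ S₂) {x : Ω} (h₁ : x ∈ S₁) (h₂ : x ∈ S₂) : x = 1 := by
  have : x ∈ S₁ ⊓ S₂ := ⟨h₁, h₂⟩
  rw [h.inf] at this
  exact this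

/-- The elements of `S₂` centralize subgroups of `S₁`. -/
theorem DF.le_centralizerIn (h : DF F S₁ S₂) {P : Subgroup Ω} (hP : P ≤ S₁) : S₂ ≤ centralizerIn S P := fun b hb =>
  mem_centralizerIn.2 ⟨h.le₂ hb, fun x hx => h.comm x (hP hx) b hb⟩

theorem DF.le_centralizerIn' (h : DF F S₁ S₂) {P : Subgroup Ω} (hP : P ≤ S₂) : S₁ ≤ centralizerIn S P := fun b hb =>
  mem_centralizerIn.2 ⟨h.le₁ hb, fun x hx => (h.comm b hb x (hP hx)).symm⟩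

theorem DF.sup_centralizer₁ (h : DF F S₁ S₂) : S₁ ⊔ centralizerIn S S₁ = S := by
  refine le_antisymm (sup_le h.le₁ (centralizerIn_le _)) ?_
  exact h.sup.ge.trans (sup_le_sup_left (h.le_centralizerIn le_rfl) _)

theorem DF.sup_centralizer₂ (h : DF F S₁ S₂) : S₂ ⊔ centralizerIn S S₂ = S := by
  refine le_antisymm (sup_le h.le₂ (centralizerIn_le _)) ?_
  have h1 : S ≤ S₂ ⊔ S₁ := by rw [sup_comm]; exact h.sup.ge
  exact h1.trans (sup_le_sup_left (h.le_centralizerIn' le_rfl) _)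

/-- `Aut_S(P) = Aut_{S₁}(P)` for `P ≤ S₁`. -/
theorem DF.autInducedBy_eq (h : DF F S₁ S₂) {P : Subgroup Ω} (hP : P ≤ S₁) :
    autInducedBy S P = autInducedBy S₁ P := by
  refine le_antisymm (fun α hα => ?_) (autInducedBy_mono h.le₁)
  obtain ⟨g, hg, v⟩ := mem_autInducedBy_iff.1 hα
  obtain ⟨a, ha, b, hb, rfl⟩ := h.exists_mul hg
  refine mem_autInducedBy_iff.2 ⟨a, ha, fun x => ?_⟩
  rw [v x]
  have : b * (x : Ω) * b⁻¹ = x := by rw [← h.comm x (hP x.2) b hb]; simp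
  calc a * b * (x : Ω) * (a * b)⁻¹ = a * (b * (x : Ω) * b⁻¹) * a⁻¹ := by group
    _ = _ := by rw [this]

section

variable [Finite S]

/-- A strongly closed subgroup is fully normalized. -/
theorem fullyNormalized_of_sc {T : Subgroup Ω} (h : F.StronglyClosed T) : F.IsFullyNormalized T :=
  ⟨h.1, fun Q hQ => by
    obtain ⟨φ, hφ, rfl⟩ := hQ
    rw [(StronglyClosed.weaklyClosed h).2 φ hφ]⟩

/-- Maps on a strongly closed `T` with `T C_S(T) = S` extend to `S`. -/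
theorem dp_extend (hS : IsPGroup p S) (hF : F.IsSaturated p) {T : Subgroup Ω} (h : F.StronglyClosed T)
    (hsup : T ⊔ centralizerIn S T = S) {φ : T →* Ω} (hφ : φ ∈ F.Hom T) :
    ∃ a ∈ F.autGroup S, ∀ x : T, ((a ⟨x, h.1 x.2⟩ : S) : Ω) = φ x := by
  have hrec := IsSat.receptive_of_fullyNormalized hS hF (fullyNormalized_of_sc h)
  obtain ⟨α, hα, v⟩ := exists_aut_of_map hφ (fun x => h.2 T le_rfl φ hφ x)
  obtain ⟨β, hβ, w⟩ := extend_to_sup_centralizer hrec hα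
  have hβi := (mem_autGroup_iff (sup_le h.1 (centralizerIn_le _))).1 hβ
  have hle : S ≤ T ⊔ centralizerIn S T := hsup.ge
  have hres := res_mem F hβi hle
  obtain ⟨a, ha, av⟩ := exists_aut_of_map hres (fun x => hom_val F hres x)
  refine ⟨a, ha, fun x => ?_⟩
  rw [av]
  have := w x
  rw [v] at this
  exact this

end

/-- An automorphism of `S` transports all maps. -/
theorem tr_self [Finite S] {a : MulAut S} (ha : a ∈ F.autGroup S) {W : Subgroup Ω} {ψ : W →* Ω} (hψ : ψ ∈ F.Hom W) :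
    TrProp F a ψ := by
  have hai : IsIso F (P := S) (Q := S) a := (mem_autGroup_iff le_rfl).1 ha
  have hW := hom_le F hψ
  obtain ⟨e, he, hev⟩ := exists_iso_imgS hW hai
  have hsym : (W.subtype.comp e.symm.toMonoidHom) ∈ F.Hom (imgS a W) := he.symm
  have h1 : ψ.comp e.symm.toMonoidHom ∈ F.Hom (imgS a W) :=
    hom_congr F (F.comp_mem hsym hψ (fun x => (e.symm x).2)) (fun x => by
      simp only [MonoidHom.comp_apply]
      rfl)
  have h2 := F.comp_mem h1 hai (fun x => hom_val F hψ _)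
  refine ⟨_, h2, fun x y hy => ?_⟩
  have hy' : y = e x := Subtype.ext (by rw [hy, hev])
  subst hy'
  simp only [MonoidHom.comp_apply]
  rw [aExt_of_mem a (hom_val F hψ x)]
  simp

theorem aExt_mem_of_sc [Finite S] {T : Subgroup Ω} (hT : F.StronglyClosed T) {a : MulAut S} (ha : a ∈ F.autGroup S) {x : Ω}
    (hx : x ∈ T) : aExt a x ∈ T := by
  have hxS := hT.1 hx
  rw [aExt_of_mem a hxS]
  exact StronglyClosed.aut_mem hT le_rfl ha (x := ⟨x, hxS⟩) hx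

theorem le_imgS_of_sc [Finite S] {T : Subgroup Ω} (hT : F.StronglyClosed T) {a : MulAut S} (ha : a ∈ F.autGroup S) :
    T ≤ imgS a T := fun y hy =>
  (mem_imgS hT.1).2 ⟨aExt a⁻¹ y, aExt_mem_of_sc hT (Subgroup.inv_mem _ ha) hy, aExt_apply_inv a (hT.1 hy)⟩

theorem imgS_mono' (a : MulAut S) {P P' : Subgroup Ω} (hPP' : P ≤ P') : imgS a P ≤ imgS a P' :=
  Subgroup.map_mono (fun _ hx => Subgroup.mem_subgroupOf.2 (hPP' (Subgroup.mem_subgroupOf.1 hx)))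

theorem DF.sup_mul (h : DF F S₁ S₂) {P : Subgroup Ω} (hP : P ≤ S₁) {x : Ω} (hx : x ∈ P ⊔ S₂) :
    ∃ q ∈ P, ∃ b ∈ S₂, x = q * b :=
  exists_mul_of_mem_sup (fun b hb => (mem_normalizerIn.1 (centralizerIn_le_normalizerIn (h.le_centralizerIn hP hb))).2) hx

/-- Automorphisms of `S` do not decrease the size of normalizers. -/
theorem card_normalizerIn_imgS_le [Finite S] (a : MulAut S) {U : Subgroup Ω} (hU : U ≤ S) :
    Nat.card (normalizerIn S U) ≤ Nat.card (normalizerIn S (imgS a U)) := by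
  have : Finite (normalizerIn S (imgS a U)) := finite_of_le (normalizerIn_le _)
  have hI : Finite (imgS a U) := finite_of_le (imgS_le a U)
  have hm : ∀ g : normalizerIn S U, aExt a g ∈ normalizerIn S (imgS a U) := by
    intro g
    have hg := mem_normalizerIn.1 g.2
    refine mem_normalizerIn.2 ⟨aExt_mem a hg.1, mem_normalizer_of_forall (fun x hx => ?_)⟩
    obtain ⟨u, hu, rfl⟩ := (mem_imgS hU).1 hx
    have h1 : (g : Ω) * u * (g : Ω)⁻¹ ∈ U := conj_mem_of_mem_normalizer hg.2 hu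
    rw [← aExt_inv a hg.1, ← aExt_mul a hg.1 (hU hu), ← aExt_mul a (S.mul_mem hg.1 (hU hu)) (S.inv_mem hg.1)]
    exact aExt_mem_imgS a hU h1
  refine Nat.card_le_card_of_injective (fun g => ⟨aExt a g, hm g⟩) (fun g g' hgg' => ?_)
  apply Subtype.ext
  have h1 : aExt a (g : Ω) = aExt a (g' : Ω) := congrArg (fun z : ↥(normalizerIn S (imgS a U)) => (z : Ω)) hgg'
  have h2 := congrArg (aExt a⁻¹) h1
  rwa [aExt_inv_apply a (mem_normalizerIn.1 g.2).1, aExt_inv_apply a (mem_normalizerIn.1 g'.2).1] at h2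

/-- The automorphisms of `U` fixing `L` pointwise. -/
def fixAut {U L : Subgroup Ω} (hLU : L ≤ U) : Subgroup (MulAut U) where
  carrier := {β | ∀ x : L, ((β (Subgroup.inclusion hLU x) : U) : Ω) = x}
  mul_mem' := by
    intro a b ha hb x
    have h1 : b (Subgroup.inclusion hLU x) = Subgroup.inclusion hLU x := Subtype.ext (hb x)
    show ((a (b (Subgroup.inclusion hLU x)) : U) : Ω) = x
    rw [h1]
    exact ha x
  one_mem' := fun x => rfl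
  inv_mem' := by
    intro a ha x
    have h1 : a (Subgroup.inclusion hLU x) = Subgroup.inclusion hLU x := Subtype.ext (ha x)
    have h2 : a⁻¹ (Subgroup.inclusion hLU x) = Subgroup.inclusion hLU x := by
      conv_lhs => rw [← h1]
      simp
    rw [h2]
    rfl

section

variable {R' : FusionSystem S₁} (h : DF F S₁ S₂) (hR' : ∀ P : Subgroup Ω, P ≤ S₁ → R'.Hom P = F.centralizerHom S₂ P)

include h hR'

theorem mem_R' {P : Subgroup Ω} (hP : P ≤ S₁) {φ : P →* Ω} :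
    φ ∈ R'.Hom P ↔ φ ∈ F.Hom P ∧ ∃ ψ ∈ F.Hom (P ⊔ S₂), (∀ x : P, ψ (Subgroup.inclusion le_sup_left x) = φ x) ∧
      ∀ x : S₂, ψ (Subgroup.inclusion le_sup_right x) = x := by
  rw [hR' P hP]
  constructor
  · rintro ⟨h1, -, -, h2⟩
    exact ⟨h1, h2⟩
  · rintro ⟨h1, h2⟩
    refine ⟨h1, fun x hx => ?_, fun x => ?_, h2⟩
    · exact h.le_centralizerIn' le_rfl (hP hx)
    · exact h.le_centralizerIn' le_rfl (h.sc₁.2 P hP φ h1 x)

theorem R'_sub : R'.IsSubsystemOf F := by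
  intro P φ hφ
  exact ((mem_R' h hR' (hom_le R' hφ)).1 hφ).1


/-- The transport of a map of `R'` under `Aut_F(S)`. -/
theorem tr_R' [Finite S] {a : MulAut S} (ha : a ∈ F.autGroup S) {P : Subgroup Ω} {δ : P →* Ω} (hδ : δ ∈ R'.Hom P) :
    ∃ χ ∈ R'.Hom (imgS a P), ∀ (x : P) (y : imgS a P), (y : Ω) = aExt a x → χ y = aExt a (δ x) := by
  have hP₁ : P ≤ S₁ := hom_le R' hδ
  have hPS := hP₁.trans h.le₁
  obtain ⟨-, ψ, hψ, v₁, v₂⟩ := (mem_R' h hR' hP₁).1 hδ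
  obtain ⟨χ₀, hχ₀, w⟩ := tr_self ha hψ
  have hI : imgS a P ≤ S₁ := by
    intro y hy
    obtain ⟨x, hx, rfl⟩ := (mem_imgS hPS).1 hy
    exact aExt_mem_of_sc h.sc₁ ha (hP₁ hx)
  have hle : imgS a P ⊔ S₂ ≤ imgS a (P ⊔ S₂) :=
    sup_le (imgS_mono' a le_sup_left) ((le_imgS_of_sc h.sc₂ ha).trans (imgS_mono' a le_sup_right))
  have hle₁ : imgS a P ≤ imgS a (P ⊔ S₂) := le_sup_left.trans hle
  refine ⟨χ₀.comp (Subgroup.inclusion hle₁), (mem_R' h hR' hI).2 ⟨res_mem F hχ₀ hle₁, χ₀.comp (Subgroup.inclusion hle),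
    res_mem F hχ₀ hle, fun x => rfl, fun b => ?_⟩, fun x y hy => ?_⟩
  · obtain ⟨b', hb', hb'v⟩ := (mem_imgS h.sc₂.1).1 (le_imgS_of_sc h.sc₂ ha b.2)
    have h1 := w ⟨b', Subgroup.mem_sup_right hb'⟩ (Subgroup.inclusion hle (Subgroup.inclusion le_sup_right b)) hb'v.symm
    have h2 : ψ ⟨b', Subgroup.mem_sup_right hb'⟩ = b' := v₂ ⟨b', hb'⟩
    rw [h2, hb'v] at h1
    exact h1
  · have h1 := w ⟨x, Subgroup.mem_sup_left x.2⟩ (Subgroup.inclusion hle₁ y) hy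
    have h2 : ψ ⟨x, Subgroup.mem_sup_left x.2⟩ = δ x := v₁ x
    rw [h2] at h1
    exact h1

section

variable [Finite S] (hS : IsPGroup p S) (hF : F.IsSaturated p)

include hS hF

/-- Correct a map on `P ⊔ S₂` by an automorphism of `S` so that it fixes `S₂`. -/
theorem dp_correct {P : Subgroup Ω} (hP : P ≤ S₁) {γ : ↥(P ⊔ S₂) →* Ω} (hγ : γ ∈ F.Hom (P ⊔ S₂)) :
    ∃ a ∈ F.autGroup S, ∃ δ₀ ∈ F.Hom (P ⊔ S₂), (∀ z, δ₀ z = aExt a⁻¹ (γ z)) ∧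
      ∀ b : S₂, δ₀ (Subgroup.inclusion le_sup_right b) = b := by
  obtain ⟨a, ha, av⟩ := dp_extend hS hF h.sc₂ h.sup_centralizer₂ (res_mem F hγ (le_sup_right : S₂ ≤ P ⊔ S₂))
  have hinv : a⁻¹ ∈ F.autGroup S := Subgroup.inv_mem _ ha
  have hinvi : IsIso F (P := S) (Q := S) a⁻¹ := (mem_autGroup_iff le_rfl).1 hinv
  have h2 := F.comp_mem hγ hinvi (fun x => hom_val F hγ x)
  have hv : ∀ z, (S.subtype.comp (a⁻¹).toMonoidHom).comp (γ.codRestrict S (fun x => hom_val F hγ x)) z = aExt a⁻¹ (γ z) := by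
    intro z
    rw [aExt_of_mem _ (hom_val F hγ z)]
    rfl
  refine ⟨a, ha, _, h2, hv, fun b => ?_⟩
  rw [hv]
  have h3 : γ (Subgroup.inclusion le_sup_right b) = ((a ⟨b, h.le₂ b.2⟩ : S) : Ω) := (av b).symm
  rw [h3, ← aExt_of_mem a (h.le₂ b.2), aExt_inv_apply a (h.le₂ b.2)]

/-- Normal form of a map whose image is receptive. -/
theorem dp_normal_form {P : Subgroup Ω} (hP : P ≤ S₁) {φ : P →* Ω} (hφ : φ ∈ F.Hom P) (hrec : F.IsReceptive φ.range) :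
    ∃ a ∈ F.autGroup S, ∃ δ ∈ R'.Hom P, ∀ x, φ x = aExt a (δ x) := by
  obtain ⟨e, he, ev⟩ := exists_isIso_of_mem hφ rfl
  obtain ⟨ψ, hψ, v⟩ := IsReceptive.extend_sup (N := S₂) hrec he (fun g hg => by
    have hg' := mem_centralizerIn.1 (h.le_centralizerIn hP hg)
    refine ⟨hg'.1, (mem_normalizerIn.1 (centralizerIn_le_normalizerIn (h.le_centralizerIn hP hg))).2, 1, S.one_mem,
      fun x hx => ?_⟩
    have h1 : g * (x : Ω) * g⁻¹ = x := by rw [← hg'.2 x x.2]; simp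
    have h2 : (⟨g * (x : Ω) * g⁻¹, hx⟩ : P) = x := Subtype.ext h1
    rw [h2]
    simp)
  obtain ⟨a, ha, δ₀, hδ₀, w, wb⟩ := dp_correct h hR' hS hF hP hψ
  refine ⟨a, ha, δ₀.comp (Subgroup.inclusion le_sup_left), (mem_R' h hR' hP).2 ⟨res_mem F hδ₀ le_sup_left, δ₀, hδ₀,
    fun x => rfl, wb⟩, fun x => ?_⟩
  show φ x = aExt a (δ₀ _)
  rw [w, aExt_apply_inv a (hom_val F hψ _)]
  have := v x x.2 (Subgroup.mem_sup_left x.2)
  rw [ev] at this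
  exact this.symm

/-- The Frattini property for `R'`. -/
theorem dp_frattini {P : Subgroup Ω} (hP : P ≤ S₁) {φ : P →* Ω} (hφ : φ ∈ F.Hom P) :
    ∃ a ∈ F.autGroup S, ∃ δ ∈ R'.Hom P, ∀ x, φ x = aExt a (δ x) := by
  have hRS : φ.range ≤ S := by
    rintro _ ⟨x, rfl⟩
    exact hom_val F hφ x
  have hR₁ : φ.range ≤ S₁ := by
    rintro _ ⟨x, rfl⟩
    exact h.sc₁.2 P hP φ hφ x
  obtain ⟨Qs, ⟨χ, hχ, hχr⟩, hfn⟩ := exists_fullyNormalized_conj (F := F) hRS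
  have hrec := IsSat.receptive_of_fullyNormalized hS hF hfn
  have hχφ := F.comp_mem hφ hχ (fun x => ⟨x, rfl⟩)
  have hrange : (χ.comp (φ.codRestrict φ.range (fun x => ⟨x, rfl⟩))).range = Qs := by
    rw [← hχr]
    ext y
    constructor
    · rintro ⟨x, rfl⟩
      exact ⟨_, rfl⟩
    · rintro ⟨⟨_, x, rfl⟩, rfl⟩
      exact ⟨x, rfl⟩
  obtain ⟨a₁, ha₁, δ₁, hδ₁, v₁⟩ := dp_normal_form h hR' hS hF hP hχφ (by rw [hrange]; exact hrec)
  obtain ⟨a₂, ha₂, δ₂, hδ₂, v₂⟩ := dp_normal_form h hR' hS hF hR₁ hχ (by rw [hχr]; exact hrec)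
  obtain ⟨ρ, hρ, vρ⟩ := R'.inv_mem hδ₂
  have hc : a₂⁻¹ * a₁ ∈ F.autGroup S := Subgroup.mul_mem _ (Subgroup.inv_mem _ ha₂) ha₁
  have hcinv : (a₂⁻¹ * a₁)⁻¹ ∈ F.autGroup S := Subgroup.inv_mem _ hc
  obtain ⟨ξ, hξ, vξ⟩ := tr_R' h hR' hcinv hρ
  have hδ₁S : ∀ x : P, δ₁ x ∈ S := fun x => h.le₁ (hom_val R' hδ₁ x)
  have hδ₂S : ∀ x : φ.range, δ₂ x ∈ S := fun x => h.le₁ (hom_val R' hδ₂ x)
  have key : ∀ x : P, δ₂ ⟨φ x, ⟨x, rfl⟩⟩ = aExt (a₂⁻¹ * a₁) (δ₁ x) := by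
    intro x
    have h1 : χ ⟨φ x, ⟨x, rfl⟩⟩ = aExt a₁ (δ₁ x) := v₁ x
    rw [v₂] at h1
    have h2 := congrArg (aExt a₂⁻¹) h1
    rw [aExt_inv_apply _ (hδ₂S _)] at h2
    rw [aExt_comp _ _ (hδ₁S x)]
    exact h2
  have hδ₂R : δ₂.range ≤ S := by
    rintro _ ⟨x, rfl⟩
    exact hδ₂S x
  have hcv : ∀ x : P, δ₁ x = aExt (a₂⁻¹ * a₁)⁻¹ (δ₂ ⟨φ x, ⟨x, rfl⟩⟩) := by
    intro x
    rw [key, aExt_inv_apply _ (hδ₁S x)]
  have hm : ∀ x : P, δ₁ x ∈ imgS (a₂⁻¹ * a₁)⁻¹ δ₂.range := fun x =>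
    (mem_imgS hδ₂R).2 ⟨δ₂ ⟨φ x, ⟨x, rfl⟩⟩, ⟨_, rfl⟩, (hcv x).symm⟩
  refine ⟨a₂⁻¹ * a₁, hc, ξ.comp (δ₁.codRestrict _ hm), R'.comp_mem hδ₁ hξ hm, fun x => ?_⟩
  have h3 := vξ ⟨δ₂ ⟨φ x, ⟨x, rfl⟩⟩, ⟨_, rfl⟩⟩ ⟨δ₁ x, hm x⟩ (hcv x)
  show φ x = aExt (a₂⁻¹ * a₁) (ξ ⟨δ₁ x, hm x⟩)
  rw [h3]
  have h4 := vρ (⟨φ x, ⟨x, rfl⟩⟩ : φ.range)
  have h5 : ρ ⟨δ₂ ⟨φ x, ⟨x, rfl⟩⟩, ⟨_, rfl⟩⟩ = φ x := h4
  rw [h5, aExt_apply_inv _ (hom_val F hφ x)]

end


section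

variable [Finite S] (hS : IsPGroup p S) (hF : F.IsSaturated p)

include hS hF

/-- Good conjugates. -/
theorem dp_good_conj {P : Subgroup Ω} (hP : P ≤ S₁) :
    ∃ Q, R'.IsConj P Q ∧ Q ≤ S₁ ∧ F.IsFullyNormalized (Q ⊔ S₂) := by
  have hU₀ : P ⊔ S₂ ≤ S := sup_le (hP.trans h.le₁) h.le₂
  obtain ⟨U, ⟨γ, hγ, hγr⟩, hfn⟩ := exists_fullyNormalized_conj (F := F) hU₀
  obtain ⟨a, ha, δ₀, hδ₀, w, wb⟩ := dp_correct h hR' hS hF hP hγ
  have hδ : δ₀.comp (Subgroup.inclusion le_sup_left) ∈ R'.Hom P :=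
    (mem_R' h hR' hP).2 ⟨res_mem F hδ₀ le_sup_left, δ₀, hδ₀, fun x => rfl, wb⟩
  have hQ₁ : (δ₀.comp (Subgroup.inclusion (le_sup_left : P ≤ P ⊔ S₂))).range ≤ S₁ := by
    rintro _ ⟨x, rfl⟩
    exact hom_val R' hδ x
  refine ⟨_, ⟨_, hδ, rfl⟩, hQ₁, ?_⟩
  set Q := (δ₀.comp (Subgroup.inclusion (le_sup_left : P ≤ P ⊔ S₂))).range with hQdef
  have hUS : U ≤ S := hfn.1
  have hinv : a⁻¹ ∈ F.autGroup S := Subgroup.inv_mem _ ha
  have hγU : ∀ z, γ z ∈ U := fun z => by rw [← hγr]; exact ⟨z, rfl⟩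
  have e : Q ⊔ S₂ = imgS a⁻¹ U := by
    apply le_antisymm
    · refine sup_le ?_ ?_
      · rintro _ ⟨x, rfl⟩
        exact (mem_imgS hUS).2 ⟨γ (Subgroup.inclusion le_sup_left x), hγU _, (w _).symm⟩
      · intro b hb
        refine (mem_imgS hUS).2 ⟨γ ⟨b, Subgroup.mem_sup_right hb⟩, hγU _, ?_⟩
        rw [← w]
        exact wb ⟨b, hb⟩
    · intro y hy
      obtain ⟨u, hu, rfl⟩ := (mem_imgS hUS).1 hy
      rw [← hγr] at hu
      obtain ⟨z, rfl⟩ := hu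
      rw [← w]
      refine map_sup_mem (fun x hx => ?_) (fun b hb => ?_) z
      · exact Subgroup.mem_sup_left ⟨⟨x, hx⟩, rfl⟩
      · have : δ₀ ⟨b, Subgroup.mem_sup_right hb⟩ = b := wb ⟨b, hb⟩
        rw [this]
        exact Subgroup.mem_sup_right hb
  rw [e]
  have hconj : F.IsConj U (imgS a⁻¹ U) := by
    obtain ⟨e', he', -⟩ := exists_iso_imgS hUS ((mem_autGroup_iff le_rfl).1 hinv)
    exact isConj_iff.2 ⟨e', he'⟩
  refine ⟨imgS_le _ _, fun W hW => ?_⟩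
  exact (hfn.2 W (IsConj.trans hconj hW)).trans (card_normalizerIn_imgS_le a⁻¹ hUS)

/-- Receptivity in `R'`. -/
theorem dp_receptive {Q : Subgroup Ω} (hQ : Q ≤ S₁) (hfn : F.IsFullyNormalized (Q ⊔ S₂)) : R'.IsReceptive Q := by
  refine ⟨hQ, fun P₀ φ₀ hφ₀ hr => ?_⟩
  have hP₀ := hom_le R' hφ₀
  obtain ⟨hφF, ψ₀, hψ₀, v₁, v₂⟩ := (mem_R' h hR' hP₀).1 hφ₀
  have v₁' : ∀ (x : Ω) (hx : x ∈ P₀), ψ₀ ⟨x, Subgroup.mem_sup_left hx⟩ = φ₀ ⟨x, hx⟩ := fun x hx => v₁ ⟨x, hx⟩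
  have v₂' : ∀ (x : Ω) (hx : x ∈ S₂), ψ₀ ⟨x, Subgroup.mem_sup_right hx⟩ = x := fun x hx => v₂ ⟨x, hx⟩
  have hrange : ψ₀.range = Q ⊔ S₂ := by
    apply le_antisymm
    · rintro _ ⟨y, rfl⟩
      refine map_sup_mem (fun x hx => ?_) (fun b hb => ?_) y
      · rw [v₁' x hx]
        exact Subgroup.mem_sup_left (by rw [← hr]; exact ⟨_, rfl⟩)
      · rw [v₂' b hb]
        exact Subgroup.mem_sup_right hb
    · refine sup_le ?_ ?_
      · rw [← hr]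
        rintro _ ⟨x, rfl⟩
        exact ⟨_, v₁ x⟩
      · intro b hb
        exact ⟨_, v₂' b hb⟩
  have hrec := IsSat.receptive_of_fullyNormalized hS hF hfn
  obtain ⟨Ψ, hΨ, vΨ⟩ := hrec.2 (P₀ ⊔ S₂) ψ₀ hψ₀ hrange
  have hN : extender S₁ P₀ φ₀ ≤ S₁ := extender_le_normalizerIn.trans (normalizerIn_le _)
  have hle : extender S₁ P₀ φ₀ ⊔ S₂ ≤ extender S (P₀ ⊔ S₂) ψ₀ := by
    refine sup_le (fun g hg => ?_) (fun b hb => le_extender hψ₀ (Subgroup.mem_sup_right hb))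
    obtain ⟨hg₁, hgN, k, hk, w⟩ := mem_extender_iff.1 hg
    have hgb : ∀ b ∈ S₂, g * b * g⁻¹ = b := fun b hb => by rw [h.comm g hg₁ b hb]; simp
    have hkb : ∀ b ∈ S₂, k * b * k⁻¹ = b := fun b hb => by rw [h.comm k hk b hb]; simp
    have hsS : P₀ ⊔ S₂ ≤ S := sup_le (hP₀.trans h.le₁) h.le₂
    have : Finite ↥(P₀ ⊔ S₂) := finite_of_le hsS
    refine mem_extender_iff.2 ⟨h.le₁ hg₁, mem_normalizer_of_forall (fun x hx => ?_), k, h.le₁ hk, fun y hy => ?_⟩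
    · obtain ⟨q, hq, b, hb, rfl⟩ := h.sup_mul hP₀ hx
      have e : g * (q * b) * g⁻¹ = (g * q * g⁻¹) * (g * b * g⁻¹) := by group
      rw [e, hgb b hb]
      exact Subgroup.mul_mem _ (Subgroup.mem_sup_left (conj_mem_of_mem_normalizer hgN hq)) (Subgroup.mem_sup_right hb)
    · obtain ⟨y, hyy⟩ := y
      obtain ⟨q, hq, b, hb, rfl⟩ := h.sup_mul hP₀ hyy
      have hqc : g * q * g⁻¹ ∈ P₀ := conj_mem_of_mem_normalizer hgN hq
      have e0 : ∀ (c d : Ω) (hc : c ∈ P₀) (hd : d ∈ S₂) (hcd : c * d ∈ P₀ ⊔ S₂), ψ₀ ⟨c * d, hcd⟩ = φ₀ ⟨c, hc⟩ * d := by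
        intro c d hc hd hcd
        have : (⟨c * d, hcd⟩ : ↥(P₀ ⊔ S₂)) = ⟨c, Subgroup.mem_sup_left hc⟩ * ⟨d, Subgroup.mem_sup_right hd⟩ := rfl
        rw [this, map_mul, v₁' _ hc, v₂' _ hd]
      have e1 : g * (q * b) * g⁻¹ = (g * q * g⁻¹) * b := by
        have e : g * (q * b) * g⁻¹ = (g * q * g⁻¹) * (g * b * g⁻¹) := by group
        rw [e, hgb b hb]
      have e2 : (⟨g * ((⟨q * b, hyy⟩ : ↥(P₀ ⊔ S₂)) : Ω) * g⁻¹, hy⟩ : ↥(P₀ ⊔ S₂)) = ⟨(g * q * g⁻¹) * b, by rw [← e1]; exact hy⟩ :=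
        Subtype.ext e1
      rw [e2, e0 _ _ hqc hb, e0 _ _ hq hb, w ⟨q, hq⟩ hqc]
      have hk2 : k * b = b * k := h.comm k hk b hb
      show k * φ₀ ⟨q, hq⟩ * k⁻¹ * b = k * (φ₀ ⟨q, hq⟩ * b) * k⁻¹
      calc k * φ₀ ⟨q, hq⟩ * k⁻¹ * b = k * φ₀ ⟨q, hq⟩ * (k⁻¹ * b) := by group
        _ = k * φ₀ ⟨q, hq⟩ * (b * k⁻¹) := by
            congr 1
            rw [inv_mul_eq_iff_eq_mul, ← mul_assoc, hk2, mul_assoc, mul_inv_cancel, mul_one]
        _ = _ := by group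
  have hres := res_mem F hΨ hle
  refine ⟨(Ψ.comp (Subgroup.inclusion hle)).comp (Subgroup.inclusion le_sup_left),
    (mem_R' h hR' hN).2 ⟨res_mem F hres le_sup_left, _, hres, fun x => rfl, fun b => ?_⟩, fun x hx hxN => ?_⟩
  · have := vΨ b (Subgroup.mem_sup_right b.2) (hle (Subgroup.mem_sup_right b.2))
    rw [v₂' b b.2] at this
    exact this
  · have := vΨ x (Subgroup.mem_sup_left hx) (hle (Subgroup.mem_sup_left hxN))
    rw [v₁' x hx] at this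
    exact this

end


section

variable [Finite S] (hS : IsPGroup p S) (hF : F.IsSaturated p)

include hS hF

/-- Full automization in `R'`. -/
theorem dp_automized {Q : Subgroup Ω} (hQ : Q ≤ S₁) (hfn : F.IsFullyNormalized (Q ⊔ S₂)) : R'.IsFullyAutomized p Q := by
  have hUS : Q ⊔ S₂ ≤ S := hfn.1
  have hQU : Q ≤ Q ⊔ S₂ := le_sup_left
  have hLU : S₂ ≤ Q ⊔ S₂ := le_sup_right
  have : Finite ↥(Q ⊔ S₂) := finite_of_le hUS
  have : Finite ↥Q := finite_of_le (hQ.trans h.le₁)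
  have : Finite (MulAut ↥(Q ⊔ S₂)) := finite_mulAut _
  have : Finite (MulAut ↥Q) := finite_mulAut _
  have hdir : ∀ γ ∈ F.autGroup (Q ⊔ S₂), ∀ x : ↥(Q ⊔ S₂), (x : Ω) ∈ Q → (γ x : Ω) ∈ Q := by
    intro γ hγ x hx
    have h1 : (γ x : Ω) ∈ S₁ := StronglyClosed.aut_mem h.sc₁ hUS hγ (hQ hx)
    obtain ⟨q, hq, b, hb, e⟩ := h.sup_mul hQ (γ x).2
    have hb1 : b ∈ S₁ := by
      have e2 : b = q⁻¹ * (γ x : Ω) := by rw [e]; group
      rw [e2]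
      exact S₁.mul_mem (S₁.inv_mem (hQ hq)) h1
    have := h.eq_one_of_mem hb1 hb
    rw [e, this, mul_one]
    exact hq
  have hA : ∀ γ ∈ F.autGroup (Q ⊔ S₂), ∀ x : ↥(Q ⊔ S₂), (γ x : Ω) ∈ Q ↔ (x : Ω) ∈ Q := by
    intro γ hγ x
    refine ⟨fun hx => ?_, hdir γ hγ x⟩
    have := hdir γ⁻¹ (Subgroup.inv_mem _ hγ) (γ x) hx
    simpa using this
  let X : Subgroup (MulAut ↥(Q ⊔ S₂)) := F.autGroup (Q ⊔ S₂) ⊓ fixAut hLU
  let Y : Subgroup (MulAut ↥(Q ⊔ S₂)) := stabIn X Q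
  let res := resHom hQU X
  have hYA : Y ≤ F.autGroup (Q ⊔ S₂) := fun β hβ => hβ.1.1
  have hYn : (Y.subgroupOf (F.autGroup (Q ⊔ S₂))).Normal := by
    constructor
    intro n hn g
    rw [Subgroup.mem_subgroupOf] at hn ⊢
    have hmem : (g : MulAut ↥(Q ⊔ S₂)) * n * (g : MulAut ↥(Q ⊔ S₂))⁻¹ ∈ F.autGroup (Q ⊔ S₂) :=
      Subgroup.mul_mem _ (Subgroup.mul_mem _ g.2 n.2) (Subgroup.inv_mem _ g.2)
    refine ⟨⟨hmem, fun b => ?_⟩, hA _ hmem⟩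
    have h1 : (((g : MulAut ↥(Q ⊔ S₂))⁻¹ (Subgroup.inclusion hLU b) : ↥(Q ⊔ S₂)) : Ω) ∈ S₂ :=
      StronglyClosed.aut_mem h.sc₂ hUS (Subgroup.inv_mem _ g.2) b.2
    have h2 := hn.1.2 ⟨_, h1⟩
    have h3 : (n : MulAut ↥(Q ⊔ S₂)) ((g : MulAut ↥(Q ⊔ S₂))⁻¹ (Subgroup.inclusion hLU b)) =
        (g : MulAut ↥(Q ⊔ S₂))⁻¹ (Subgroup.inclusion hLU b) := Subtype.ext h2
    show (((g : MulAut ↥(Q ⊔ S₂)) ((n : MulAut ↥(Q ⊔ S₂)) ((g : MulAut ↥(Q ⊔ S₂))⁻¹ (Subgroup.inclusion hLU b))) : ↥(Q ⊔ S₂)) : Ω) = b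
    rw [h3]
    simp
  have hres_inj : Function.Injective res := by
    refine (injective_iff_map_eq_one res).2 fun β hβ => ?_
    apply Subtype.ext
    refine MulEquiv.ext fun x => ?_
    obtain ⟨x, hx⟩ := x
    obtain ⟨q, hq, b, hb, rfl⟩ := h.sup_mul hQ hx
    have h1 : ∀ (y : Ω) (hy : y ∈ Q), (β : MulAut ↥(Q ⊔ S₂)) ⟨y, hQU hy⟩ = ⟨y, hQU hy⟩ := fun y hy =>
      Subtype.ext (by
        have := congrArg (fun z : MulAut Q => ((z ⟨y, hy⟩ : Q) : Ω)) hβ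
        exact this)
    have h2 : ∀ (y : Ω) (hy : y ∈ S₂), (β : MulAut ↥(Q ⊔ S₂)) ⟨y, hLU hy⟩ = ⟨y, hLU hy⟩ := fun y hy =>
      Subtype.ext (β.2.1.2 ⟨y, hy⟩)
    have e : (⟨q * b, hx⟩ : ↥(Q ⊔ S₂)) = ⟨q, hQU hq⟩ * ⟨b, hLU hb⟩ := rfl
    rw [e, map_mul, h1 q hq, h2 b hb]
    rfl
  have hres_surj : ∀ w ∈ R'.autGroup Q, w ∈ res.range := by
    intro w hw
    have hwi : Q.subtype.comp w.toMonoidHom ∈ R'.Hom Q := (mem_autGroup_iff hQ).1 hw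
    obtain ⟨-, ψ, hψ, v₁, v₂⟩ := (mem_R' h hR' hQ).1 hwi
    have hmaps : ∀ x : ↥(Q ⊔ S₂), ψ x ∈ Q ⊔ S₂ := map_sup_mem (fun x hx => ?_) (fun b hb => ?_)
    · obtain ⟨β, hβ, βv⟩ := exists_aut_of_map hψ hmaps
      have hfix : β ∈ fixAut hLU := fun b => by
        rw [βv]
        exact v₂ b
      refine ⟨⟨β, ⟨hβ, hfix⟩, hA β hβ⟩, ?_⟩
      refine MulEquiv.ext fun y => Subtype.ext ?_
      show ((β ⟨y, hQU y.2⟩ : ↥(Q ⊔ S₂)) : Ω) = (w y : Ω)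
      rw [βv]
      exact v₁ y
    · have : ψ ⟨x, Subgroup.mem_sup_left hx⟩ = ((w ⟨x, hx⟩ : Q) : Ω) := v₁ ⟨x, hx⟩
      rw [this]
      exact Subgroup.mem_sup_left (w ⟨x, hx⟩).2
    · have : ψ ⟨b, Subgroup.mem_sup_right hb⟩ = b := v₂ ⟨b, hb⟩
      rw [this]
      exact Subgroup.mem_sup_right hb
  have hsyl := (isFullyAutomized_iff.1 (IsSat.fullyAutomized_of_fullyNormalized hS hF hfn)).2
  have hsyl2 := IsSylowIn.inf_normal hsyl (autInducedBy_le_autGroup F hUS) hYA hYn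
  refine isFullyAutomized_iff.2 ⟨hQ, isSylowIn_of_card_ge (autInducedBy_le_autGroup R' hQ)
    (isPGroup_autInducedBy (hS.to_le h.le₁) Q) fun W hWX hWp _ => ?_⟩
  have hWr : W ≤ res.range := fun w hw => hres_surj w (hWX hw)
  have hp1 : IsPGroup p ↥(W.comap res) := hWp.comap_of_injective res hres_inj
  have hp2 : IsPGroup p ↥((W.comap res).map Y.subtype) := hp1.map _
  have hc1 : Nat.card ↥((W.comap res).map Y.subtype) = Nat.card W := by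
    rw [Subgroup.card_map_of_injective Y.subtype_injective]
    conv_rhs => rw [← Subgroup.map_comap_eq_self hWr]
    rw [Subgroup.card_map_of_injective hres_inj]
  have hle0 : (W.comap res).map Y.subtype ≤ Y := by
    rintro _ ⟨z, -, rfl⟩
    exact z.2
  have hc2 := hsyl2.card_le inf_le_right hp2 hle0
  have hm : ∀ β : ↥(autInducedBy S (Q ⊔ S₂) ⊓ Y), res ⟨β, β.2.2⟩ ∈ autInducedBy S₁ Q := by
    intro β
    obtain ⟨g, hg, gv⟩ := mem_autInducedBy_iff.1 β.2.1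
    obtain ⟨a, ha, b, hb, rfl⟩ := h.exists_mul hg
    refine mem_autInducedBy_iff.2 ⟨a, ha, fun x => ?_⟩
    show ((β : MulAut ↥(Q ⊔ S₂)) ⟨x, hQU x.2⟩ : ↥(Q ⊔ S₂)).1 = _
    rw [gv]
    have h3 : b * (x : Ω) * b⁻¹ = x := by rw [← h.comm x (hQ x.2) b hb]; simp
    show a * b * (x : Ω) * (a * b)⁻¹ = _
    calc a * b * (x : Ω) * (a * b)⁻¹ = a * (b * (x : Ω) * b⁻¹) * a⁻¹ := by group
      _ = _ := by rw [h3]
  have hc3 : Nat.card ↥(autInducedBy S (Q ⊔ S₂) ⊓ Y) ≤ Nat.card ↥(autInducedBy S₁ Q) := by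
    refine Nat.card_le_card_of_injective (fun β => ⟨res ⟨β, β.2.2⟩, hm β⟩) (fun β β' e => ?_)
    have e1 : res ⟨β, β.2.2⟩ = res ⟨β', β'.2.2⟩ := congrArg Subtype.val e
    have e2 := hres_inj e1
    exact Subtype.ext (congrArg (fun z : ↥Y => (z : MulAut ↥(Q ⊔ S₂))) e2)
  rw [← hc1]
  exact hc2.trans hc3

/-- `R'` is saturated. -/
theorem dp_sat' : R'.IsSaturated p := by
  intro P hP
  obtain ⟨Q, hc, hQ, hfn⟩ := dp_good_conj h hR' hS hF hP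
  exact ⟨Q, hc, dp_automized h hR' hS hF hQ hfn, dp_receptive h hR' hS hF hQ hfn⟩

/-- Invariance of `R'`. -/
theorem dp_invariant : R'.IsInvariantIn F := by
  refine ⟨R'_sub h hR', h.sc₁, ?_, ?_⟩
  · intro P hP φ hφ α hα
    have hαi := (mem_autGroup_iff h.le₁).1 hα
    obtain ⟨a, ha, av⟩ := dp_extend hS hF h.sc₁ h.sup_centralizer₁ hαi
    have av' : ∀ x : S₁, ((a ⟨x, h.le₁ x.2⟩ : S) : Ω) = (α x : Ω) := av
    obtain ⟨χ₀, hχ₀, w⟩ := tr_R' h hR' ha hφ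
    have hPS := hP.trans h.le₁
    have h0 : ∀ x (hx : x ∈ S₁), aExt a x = ((α ⟨x, hx⟩ : S₁) : Ω) := fun x hx => by
      rw [aExt_of_mem a (h.le₁ hx)]
      exact av' ⟨x, hx⟩
    have e : imgS a P = (P.subgroupOf S₁).map (S₁.subtype.comp α.toMonoidHom) := by
      ext y
      rw [mem_imgS hPS]
      constructor
      · rintro ⟨x, hx, rfl⟩
        exact ⟨⟨x, hP hx⟩, Subgroup.mem_subgroupOf.2 hx, (h0 x (hP hx)).symm⟩
      · rintro ⟨x, hx, rfl⟩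
        exact ⟨x, Subgroup.mem_subgroupOf.1 hx, h0 x x.2⟩
    refine ⟨χ₀.comp (Subgroup.inclusion e.ge), res_mem R' hχ₀ e.ge, fun x hφx hαx => ?_⟩
    have h2 := w x (Subgroup.inclusion e.ge ⟨_, hαx⟩) (h0 x (hP x.2)).symm
    rw [h0 _ hφx] at h2
    exact h2
  · intro P hP φ hφ
    obtain ⟨a, ha, δ, hδ, v⟩ := dp_frattini h hR' hS hF hP hφ
    have hai := (mem_autGroup_iff le_rfl).1 ha
    have hres := res_mem F hai h.le₁
    obtain ⟨α, hα, αv⟩ := exists_aut_of_map hres (fun x => StronglyClosed.aut_mem h.sc₁ le_rfl ha x.2)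
    refine ⟨α, hα, δ, hδ, fun x hx => ?_⟩
    rw [v, αv, aExt_of_mem a (h.le₁ hx)]
    rfl

omit hS hF in
/-- The extension condition for `R'` in `F`. -/
theorem dp_N2 : ∀ α ∈ R'.autGroup S₁, ∃ β ∈ F.autGroup (S₁ ⊔ centralizerIn S S₁),
      (∀ x : S₁, ((β (Subgroup.inclusion le_sup_left x) : ↥(S₁ ⊔ centralizerIn S S₁)) : Ω) = ((α x : S₁) : Ω)) ∧
      ∀ c : ↥(S₁ ⊔ centralizerIn S S₁), (c : Ω) ∈ centralizerIn S S₁ →
        (c : Ω)⁻¹ * ((β c : ↥(S₁ ⊔ centralizerIn S S₁)) : Ω) ∈ S₁ ⊓ Subgroup.centralizer (S₁ : Set Ω) := by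
  intro α hα
  have hαi : S₁.subtype.comp α.toMonoidHom ∈ R'.Hom S₁ := (mem_autGroup_iff le_rfl).1 hα
  obtain ⟨-, ψ, hψ, v₁, v₂⟩ := (mem_R' h hR' le_rfl).1 hαi
  have hle : S₁ ⊔ centralizerIn S S₁ ≤ S₁ ⊔ S₂ := by
    rw [h.sup]
    exact sup_le h.le₁ (centralizerIn_le _)
  have hres := res_mem F hψ hle
  have hmaps : ∀ x, (ψ.comp (Subgroup.inclusion hle)) x ∈ S₁ ⊔ centralizerIn S S₁ := fun x =>
    h.sup_centralizer₁.ge (hom_val F hres x)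
  obtain ⟨β, hβ, βv⟩ := exists_aut_of_map hres hmaps
  refine ⟨β, hβ, fun x => ?_, fun c hc => ?_⟩
  · rw [βv]
    exact v₁ x
  · obtain ⟨hcS, hcZ⟩ := mem_centralizerIn.1 hc
    obtain ⟨a, ha, b, hb, e⟩ := h.exists_mul hcS
    have hval : ((β c : ↥(S₁ ⊔ centralizerIn S S₁)) : Ω) = (α ⟨a, ha⟩ : Ω) * b := by
      rw [βv]
      have e1 : Subgroup.inclusion hle c =
          Subgroup.inclusion le_sup_left (⟨a, ha⟩ : S₁) * Subgroup.inclusion le_sup_right (⟨b, hb⟩ : S₂) := Subtype.ext e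
      show ψ (Subgroup.inclusion hle c) = _
      rw [e1, map_mul, v₁, v₂]
      rfl
    have haZ : ∀ x ∈ S₁, x * a = a * x := by
      intro x hx
      have h1 := hcZ x hx
      rw [e] at h1
      have h2 := h.comm x hx b hb
      have h3 : x * a * b = a * x * b := by
        calc x * a * b = x * (a * b) := by group
          _ = a * b * x := h1
          _ = a * (x * b) := by rw [mul_assoc, h2]
          _ = a * x * b := by group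
      exact mul_right_cancel h3
    have hαZ : ∀ x ∈ S₁, x * (α ⟨a, ha⟩ : Ω) = (α ⟨a, ha⟩ : Ω) * x := by
      intro x hx
      obtain ⟨y, hy⟩ := α.surjective ⟨x, hx⟩
      have h1 : (y : S₁) * ⟨a, ha⟩ = ⟨a, ha⟩ * y := Subtype.ext (haZ y y.2)
      have h2 := congrArg α h1
      rw [map_mul, map_mul, hy] at h2
      exact congrArg Subtype.val h2
    have hcomm : a⁻¹ * (α ⟨a, ha⟩ : Ω) * b = b * (a⁻¹ * (α ⟨a, ha⟩ : Ω)) :=
      h.comm _ (S₁.mul_mem (S₁.inv_mem ha) (α ⟨a, ha⟩).2) b hb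
    have hfin : (c : Ω)⁻¹ * ((β c : ↥(S₁ ⊔ centralizerIn S S₁)) : Ω) = a⁻¹ * (α ⟨a, ha⟩ : Ω) := by
      rw [hval, e]
      calc (a * b)⁻¹ * ((α ⟨a, ha⟩ : Ω) * b) = b⁻¹ * (a⁻¹ * (α ⟨a, ha⟩ : Ω) * b) := by group
        _ = _ := by rw [hcomm]; group
    rw [hfin]
    refine ⟨S₁.mul_mem (S₁.inv_mem ha) (α ⟨a, ha⟩).2, Subgroup.mem_centralizer_iff.2 fun x hx => ?_⟩
    have h1 := haZ x hx
    have h2 := hαZ x hx
    have h3 : a⁻¹ * x = x * a⁻¹ := by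
      rw [inv_mul_eq_iff_eq_mul, ← mul_assoc, ← h1, mul_assoc, mul_inv_cancel, mul_one]
    calc x * (a⁻¹ * (α ⟨a, ha⟩ : Ω)) = x * a⁻¹ * (α ⟨a, ha⟩ : Ω) := by group
      _ = a⁻¹ * x * (α ⟨a, ha⟩ : Ω) := by rw [h3]
      _ = a⁻¹ * (x * (α ⟨a, ha⟩ : Ω)) := by group
      _ = _ := by rw [h2]; group

end

end

section

variable [Finite S] {R R' : FusionSystem S₁} (h : DF F S₁ S₂) (hR : ∀ P : Subgroup Ω, P ≤ S₁ → R.Hom P = F.Hom P)
  (hS : IsPGroup p S) (hF : F.IsSaturated p)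

include h hR

omit [Finite S] in
theorem autGroup_R {Q : Subgroup Ω} (hQ : Q ≤ S₁) : R.autGroup Q = F.autGroup Q := by
  unfold autGroup
  rw [hR Q hQ]

include hS hF

/-- `R` is saturated. -/
theorem dp_R_sat : R.IsSaturated p := by
  intro P hP
  have hPS := hP.trans h.le₁
  obtain ⟨Q, ⟨φ, hφ, hr⟩, hfn⟩ := exists_fullyNormalized_conj (F := F) hPS
  have hQ₁ : Q ≤ S₁ := by
    rw [← hr]
    rintro _ ⟨x, rfl⟩
    exact h.sc₁.2 P hP φ hφ x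
  refine ⟨Q, ⟨φ, by rw [hR P hP]; exact hφ, hr⟩, ?_, ?_⟩
  · have := (isFullyAutomized_iff.1 (IsSat.fullyAutomized_of_fullyNormalized hS hF hfn)).2
    rw [h.autInducedBy_eq hQ₁, ← autGroup_R h hR hQ₁] at this
    exact isFullyAutomized_iff.2 ⟨hQ₁, this⟩
  · have hrec := IsSat.receptive_of_fullyNormalized hS hF hfn
    refine ⟨hQ₁, fun P₀ φ₀ hφ₀ hr₀ => ?_⟩
    have hP₀ := hom_le R hφ₀
    have hφ₀F : φ₀ ∈ F.Hom P₀ := by rw [← hR P₀ hP₀]; exact hφ₀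
    obtain ⟨Ψ, hΨ, vΨ⟩ := hrec.2 P₀ φ₀ hφ₀F hr₀
    have hN : extender S₁ P₀ φ₀ ≤ S₁ := extender_le_normalizerIn.trans (normalizerIn_le _)
    have hle : extender S₁ P₀ φ₀ ≤ extender S P₀ φ₀ := fun g hg => by
      obtain ⟨a, b, k, hk, w⟩ := mem_extender_iff.1 hg
      exact mem_extender_iff.2 ⟨h.le₁ a, b, k, h.le₁ hk, w⟩
    exact ⟨Ψ.comp (Subgroup.inclusion hle), by rw [hR _ hN]; exact res_mem F hΨ hle, fun x hx hxN => vΨ x hx (hle hxN)⟩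

/-- `R` is weakly normal in `F`. -/
theorem dp_R_weak : R.IsWeaklyNormalIn F p := by
  refine ⟨dp_R_sat h hR hS hF, hF, fun P φ hφ => ?_, h.sc₁, ?_, ?_⟩
  · have hP := hom_le R hφ
    rw [hR P hP] at hφ
    exact hφ
  · intro P hP φ hφ α hα
    rw [hR P hP] at hφ
    have hαi := (mem_autGroup_iff h.le₁).1 hα
    obtain ⟨e, he, ev⟩ := exists_iso_imgT (F := F) hP hαi
    have hsym : (P.subtype.comp e.symm.toMonoidHom) ∈ F.Hom (imgS α P) := he.symm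
    have h1 : φ.comp e.symm.toMonoidHom ∈ F.Hom (imgS α P) :=
      hom_congr F (F.comp_mem hsym hφ (fun x => (e.symm x).2)) (fun x => by
        simp only [MonoidHom.comp_apply]
        rfl)
    have hv : ∀ x, φ.comp e.symm.toMonoidHom x ∈ S₁ := fun x => h.sc₁.2 P hP φ hφ _
    have h2 := F.comp_mem h1 hαi hv
    have h2R : (S₁.subtype.comp α.toMonoidHom).comp ((φ.comp e.symm.toMonoidHom).codRestrict S₁ hv) ∈ R.Hom (imgS α P) := by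
      rw [hR _ (imgS_le α P)]
      exact h2
    refine ⟨_, h2R, fun x hφx hαx => ?_⟩
    have e1 : (⟨_, hαx⟩ : imgS α P) = e x := Subtype.ext (by
      rw [ev, aExt_of_mem α (hP x.2)])
    show ((α ⟨φ (e.symm (⟨_, hαx⟩ : imgS α P)), _⟩ : S₁) : Ω) = _
    congr 2
    apply Subtype.ext
    simp only [e1, MulEquiv.symm_apply_apply]
  · intro P hP φ hφ
    exact ⟨1, Subgroup.one_mem _, φ, by rw [hR P hP]; exact hφ, fun x hx => rfl⟩

theorem dp_normal_R (hR' : ∀ P : Subgroup Ω, P ≤ S₁ → R'.Hom P = F.centralizerHom S₂ P) : R'.IsNormalIn R p := by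
  have hinv := dp_invariant h hR' hS hF
  have hsub := R'_sub h hR'
  have hA := autGroup_R (Q := S₁) h hR le_rfl
  refine ⟨⟨dp_sat' h hR' hS hF, dp_R_sat h hR hS hF, fun P φ hφ => ?_, ⟨le_rfl, fun Q hQ φ hφ x => hom_val R hφ x⟩, ?_, ?_⟩, ?_⟩
  · have hP := hom_le R' hφ
    rw [hR P hP]
    exact hsub P hφ
  · intro P hP φ hφ α hα
    rw [hA] at hα
    exact hinv.2.2.1 P hP φ hφ α hα
  · intro P hP φ hφ
    rw [hR P hP] at hφ
    rw [hA]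
    exact hinv.2.2.2 P hP φ hφ
  · intro α hα
    have : Finite ↥S₁ := finite_of_le h.le₁
    have hαi : S₁.subtype.comp α.toMonoidHom ∈ R'.Hom S₁ := (mem_autGroup_iff le_rfl).1 hα
    have hle : S₁ ⊔ centralizerIn S₁ S₁ ≤ S₁ := sup_le le_rfl (centralizerIn_le _)
    have hαR : S₁.subtype.comp α.toMonoidHom ∈ R.Hom S₁ := by
      rw [hR S₁ le_rfl]
      exact hsub S₁ hαi
    have hres := res_mem R hαR hle
    obtain ⟨β, hβ, βv⟩ := exists_aut_of_map hres (fun x => Subgroup.mem_sup_left (α (Subgroup.inclusion hle x)).2)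
    refine ⟨β, hβ, fun x => ?_, fun c hc => ?_⟩
    · rw [βv]
      rfl
    · rw [βv]
      obtain ⟨hcS, hcZ⟩ := mem_centralizerIn.1 hc
      have hval : (S₁.subtype.comp α.toMonoidHom).comp (Subgroup.inclusion hle) c = (α ⟨c, hcS⟩ : Ω) := rfl
      rw [hval]
      have hαZ : ∀ x ∈ S₁, x * (α ⟨c, hcS⟩ : Ω) = (α ⟨c, hcS⟩ : Ω) * x := by
        intro x hx
        obtain ⟨y, hy⟩ := α.surjective ⟨x, hx⟩
        have h1 : (y : S₁) * ⟨c, hcS⟩ = ⟨c, hcS⟩ * y := Subtype.ext (hcZ y y.2)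
        have h2 := congrArg α h1
        rw [map_mul, map_mul, hy] at h2
        exact congrArg Subtype.val h2
      refine ⟨S₁.mul_mem (S₁.inv_mem hcS) (α ⟨c, hcS⟩).2, Subgroup.mem_centralizer_iff.2 fun x hx => ?_⟩
      have h1 := hcZ x hx
      have h2 := hαZ x hx
      have h3 : (c : Ω)⁻¹ * x = x * (c : Ω)⁻¹ := by
        rw [inv_mul_eq_iff_eq_mul, ← mul_assoc, ← h1, mul_assoc, mul_inv_cancel, mul_one]
      calc x * ((c : Ω)⁻¹ * (α ⟨c, hcS⟩ : Ω)) = x * (c : Ω)⁻¹ * (α ⟨c, hcS⟩ : Ω) := by group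
        _ = (c : Ω)⁻¹ * x * (α ⟨c, hcS⟩ : Ω) := by rw [h3]
        _ = (c : Ω)⁻¹ * (x * (α ⟨c, hcS⟩ : Ω)) := by group
        _ = _ := by rw [h2]; group

end

end Cfsg.Agent.Lib.Fusion
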