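import Cfsg.Agent.Lib.Fusion.ModelUse
import Mathlib

/-! # Automorphisms of models -/

set_option autoImplicit false

namespace Cfsg.Agent.Lib.Fusion

open Cfsg Cfsg.FusionSystem

/-- Restriction to a subgroup of coprime index is injective on first cohomology. -/
theorem cocycle_coprime {G A : Type*} [Group G] [Finite G] [Group A] [Finite A] (hcomm : ∀ x y : A, x * y = y * x)
    (a : G →* MulAut A) (T : Subgroup G) (d : G → A)
    (hd : ∀ g h, d (g * h) = d g * a g (d h)) (hT : ∀ t ∈ T, d t = 1) (hcop : (Nat.card A).Coprime T.index) :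
    ∃ z : A, ∀ h, d h = z * (a h z)⁻¹ := by
  classical
  letI : CommGroup A := { ‹Group A› with mul_comm := hcomm }
  letI : Fintype (G ⧸ T) := Fintype.ofFinite _
  have hq : ∀ g t, t ∈ T → d (g * t) = d g := by
    intro g t ht
    rw [hd, hT t ht, map_one, mul_one]
  let D : G ⧸ T → A := fun q => d (Quotient.out q)
  have hD : ∀ g : G, D (g : G ⧸ T) = d g := by
    intro g
    have h1 : ((Quotient.out (g : G ⧸ T) : G) : G ⧸ T) = (g : G ⧸ T) := QuotientGroup.out_eq' _
    have h2 := QuotientGroup.eq.1 h1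
    have h3 := hq (Quotient.out (g : G ⧸ T)) _ h2
    rw [mul_inv_cancel_left] at h3
    exact h3.symm
  let w : A := ∏ q, D q
  have hw : ∀ h, a h w = (d h)⁻¹ ^ T.index * w := by
    intro h
    have h1 : ∀ q : G ⧸ T, a h (D q) = (d h)⁻¹ * D (h • q) := by
      intro q
      have h2 : h • q = ((h * Quotient.out q : G) : G ⧸ T) := by
        conv_lhs => rw [← QuotientGroup.out_eq' q]
        rfl
      rw [h2, hD, hd, inv_mul_cancel_left]
    have h3 : (∏ q, D (h • q)) = w := Equiv.prod_comp (MulAction.toPerm h) D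
    calc a h w = ∏ q, a h (D q) := map_prod (a h) _ _
      _ = ∏ q, ((d h)⁻¹ * D (h • q)) := Finset.prod_congr rfl fun q _ => h1 q
      _ = (d h)⁻¹ ^ T.index * w := by
        rw [Finset.prod_mul_distrib, h3, Finset.prod_const, Finset.card_univ, Subgroup.index, Nat.card_eq_fintype_card]
  obtain ⟨z, hzw⟩ : ∃ z : A, z ^ T.index = w := ⟨_, (powCoprime hcop).apply_symm_apply w⟩
  refine ⟨z, fun h => (powCoprime hcop).injective ?_⟩
  show d h ^ T.index = (z * (a h z)⁻¹) ^ T.index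
  rw [mul_pow, inv_pow, ← map_pow (a h) z, hzw, hw, inv_pow]
  group

variable {Ω : Type*} [Group Ω] {S : Subgroup Ω} {F : FusionSystem S} {p : ℕ} [Fact p.Prime]
variable {G : Type*} [Group G] {ι : S →* G}

/-- **Automorphisms of a model trivial on `S`** are conjugations by central elements of `S`. -/
theorem IsModel.aut_eq_conj [Finite S] (hG : F.IsModel p G ι) (ψ : G ≃* G) (hψ : ∀ x : S, ψ (ι x) = ι x) :
    ∃ z : S, z ∈ Subgroup.center S ∧ ∀ g : G, ψ g = ι z * g * (ι z)⁻¹ := by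
  obtain ⟨hfin, hreal, ⟨T, hT⟩, hC⟩ := hG
  set P : Subgroup G := pCore p G with hP
  have hPn : P.Normal := Lib.Core.pCore_normal _ _
  have hPT : P ≤ ι.range := hT ▸ Lib.Core.pCore_le_sylow T
  let Z : Subgroup G := P ⊓ Subgroup.centralizer (P : Set G)
  have hZn : Z.Normal := by
    constructor
    rintro z ⟨hz₁, hz₂'⟩ g
    have hz₂ : z ∈ Subgroup.centralizer (P : Set G) := hz₂'
    refine ⟨hPn.conj_mem _ hz₁ g, ?_⟩
    show _ ∈ Subgroup.centralizer (P : Set G)
    rw [Subgroup.mem_centralizer_iff] at hz₂ ⊢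
    intro x hx
    have h1 := hz₂ _ (hPn.conj_mem _ hx g⁻¹)
    rw [inv_inv] at h1
    calc x * (g * z * g⁻¹) = g * ((g⁻¹ * x * g) * z) * g⁻¹ := by group
      _ = g * (z * (g⁻¹ * x * g)) * g⁻¹ := by rw [h1]
      _ = _ := by group
  have hψP : ∀ x ∈ P, ψ x = x := by
    intro x hx
    obtain ⟨s, rfl⟩ := hPT hx
    exact hψ s
  have hδ : ∀ g, ψ g * g⁻¹ ∈ Z := by
    intro g
    have hc : ψ g * g⁻¹ ∈ Subgroup.centralizer (P : Set G) := by
      rw [Subgroup.mem_centralizer_iff]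
      intro x hx
      have h1 : g⁻¹ * x * g ∈ P := by
        have := hPn.conj_mem _ hx g⁻¹
        rwa [inv_inv] at this
      have h2 := hψP _ h1
      have h3 := hψP _ hx
      rw [map_mul, map_mul, map_inv, h3] at h2
      -- `ψ g⁻¹ x ψ g = g⁻¹ x g`
      calc x * (ψ g * g⁻¹) = ψ g * ((ψ g)⁻¹ * x * ψ g) * g⁻¹ := by group
        _ = ψ g * (g⁻¹ * x * g) * g⁻¹ := by rw [h2]
        _ = _ := by group
    exact ⟨hC hc, hc⟩
  let d : G → Z := fun g => ⟨ψ g * g⁻¹, hδ g⟩
  have hcomm : ∀ x y : Z, x * y = y * x := by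
    rintro ⟨x, hx₁, hx₂⟩ ⟨y, hy₁, hy₂⟩
    apply Subtype.ext
    exact (Subgroup.mem_centralizer_iff.1 hx₂ y hy₁).symm
  have hcard : (Nat.card Z).Coprime T.index := by
    have hp : IsPGroup p Z := (Lib.Core.pCore_isPGroup p G).to_le inf_le_left
    obtain ⟨k, hk⟩ := IsPGroup.iff_card.1 hp
    rw [hk]
    exact Nat.Coprime.pow_left k ((Nat.Prime.coprime_iff_not_dvd Fact.out).2 T.not_dvd_index)
  obtain ⟨z, hz⟩ := cocycle_coprime hcomm (MulAut.conjNormal (H := Z)) (T : Subgroup G) d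
    (fun g h => by
      apply Subtype.ext
      show ψ (g * h) * (g * h)⁻¹ = ψ g * g⁻¹ * (g * (ψ h * h⁻¹) * g⁻¹)
      rw [map_mul]
      group)
    (fun t ht => by
      apply Subtype.ext
      rw [hT] at ht
      obtain ⟨s, rfl⟩ := ht
      show ψ (ι s) * (ι s)⁻¹ = 1
      rw [hψ, mul_inv_cancel]) hcard
  have hzv : ∀ g, ψ g = z * g * (z : G)⁻¹ := by
    intro g
    have h1 := congrArg Subtype.val (hz g)
    have h2 : ψ g * g⁻¹ = z * (g * z * g⁻¹)⁻¹ := h1
    calc ψ g = (ψ g * g⁻¹) * g := by group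
      _ = z * (g * z * g⁻¹)⁻¹ * g := by rw [h2]
      _ = _ := by group
  obtain ⟨z₀, hz₀⟩ := hPT z.2.1
  refine ⟨z₀, Subgroup.mem_center_iff.2 fun s => ?_, fun g => ?_⟩
  · apply hreal.1
    have h1 := hzv (ι s)
    rw [hψ] at h1
    rw [map_mul, map_mul, hz₀]
    calc ι s * z = (z * ι s * (z : G)⁻¹) * z := by rw [← h1]
      _ = _ := by group
  · rw [hz₀]
    exact hzv g

end Cfsg.Agent.Lib.Fusion
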