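import Cfsg.Agent.Lib.Fusion.SubnormalGroup
import Mathlib

/-! # Central quotients of groups with constrained fusion systems -/

set_option autoImplicit false
set_option linter.unusedSectionVars false
set_option linter.unusedVariables false

namespace Cfsg.Agent.Lib.Fusion

open Cfsg Cfsg.FusionSystem

universe u

theorem isNormal_central_group {L : Type*} [Group L] {T Z : Subgroup L} (hZ : Z ≤ Subgroup.center L) :
    (groupFusionSystem T).IsNormal (Z ⊓ T) := by
  refine ⟨inf_le_right, fun P φ hφ => ?_⟩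
  obtain ⟨hP, hv, g, hg⟩ := hφ
  have hc : ∀ x ∈ Z, g * x * g⁻¹ = x := fun x hx => by
    rw [Subgroup.mem_center_iff.1 (hZ hx) g]; group
  let K : Subgroup L := T.comap (MulAut.conj g).toMonoidHom
  have hK : P ⊔ (Z ⊓ T) ≤ K := by
    refine sup_le (fun x hx => ?_) (fun x hx => ?_)
    · have := hv ⟨x, hx⟩
      rw [hg] at this
      exact this
    · show g * x * g⁻¹ ∈ T
      rw [hc x hx.1]
      exact hx.2
  refine ⟨conjHom (P ⊔ (Z ⊓ T)) g, ⟨sup_le hP inf_le_right, fun x => hK x.2, g, fun _ => rfl⟩, fun x => (hg x).symm, ?_⟩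
  ext y
  constructor
  · rintro ⟨x, hx, rfl⟩
    have hx' : (x : L) ∈ Z ⊓ T := Subgroup.mem_subgroupOf.1 hx
    show g * (x : L) * g⁻¹ ∈ Z ⊓ T
    rw [hc _ hx'.1]
    exact hx'
  · intro hy
    refine ⟨⟨y, Subgroup.mem_sup_right hy⟩, Subgroup.mem_subgroupOf.2 hy, ?_⟩
    exact hc y hy.1

section Quot

variable {L : Type u} [Group L] [Finite L] {p : ℕ} [Fact p.Prime]

theorem mem_sylow_of_central_pElement {T : Subgroup L} (hTs : ∃ Syl : Sylow p L, (Syl : Subgroup L) = T)
    {z : L} (hz : z ∈ Subgroup.center L) {k : ℕ} (hk : z ^ p ^ k = 1) : z ∈ T := by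
  obtain ⟨Syl, rfl⟩ := hTs
  have hn : (Subgroup.zpowers z).Normal := ⟨by
    rintro _ ⟨i, rfl⟩ g
    have h1 : z ^ i ∈ Subgroup.center L := (Subgroup.center L).zpow_mem hz i
    have h2 : g * z ^ i * g⁻¹ = z ^ i := by
      rw [Subgroup.mem_center_iff.1 h1 g]; group
    show g * z ^ i * g⁻¹ ∈ _
    rw [h2]
    exact Subgroup.zpow_mem_zpowers z i⟩
  have hp : IsPGroup p (Subgroup.zpowers z) := by
    rintro ⟨_, i, rfl⟩
    refine ⟨k, Subtype.ext ?_⟩
    show (z ^ i) ^ p ^ k = 1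
    rw [← zpow_natCast, ← zpow_mul, mul_comm, zpow_mul, zpow_natCast, hk, one_zpow]
  exact Lib.Core.pCore_le_sylow Syl (Lib.Core.le_pCore hn hp (Subgroup.mem_zpowers z))

theorem mem_of_mk_mem {T Z : Subgroup L} (hTs : ∃ Syl : Sylow p L, (Syl : Subgroup L) = T) [Z.Normal]
    (hZ : Z ≤ Subgroup.center L) {y : L} {a : ℕ} (hy : y ^ p ^ a = 1)
    (h : QuotientGroup.mk' Z y ∈ T.map (QuotientGroup.mk' Z)) : y ∈ T := by
  obtain ⟨t, ht, e⟩ := h
  have hzZ : t⁻¹ * y ∈ Z := QuotientGroup.eq.1 e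
  have hT : IsPGroup p T := by
    obtain ⟨S, rfl⟩ := hTs
    exact S.isPGroup'
  obtain ⟨b, hb⟩ := hT ⟨t, ht⟩
  have hb' : t ^ p ^ b = 1 := congrArg Subtype.val hb
  have hzc := hZ hzZ
  have hcomm : Commute t y := by
    have : y = t * (t⁻¹ * y) := by group
    show t * y = y * t
    have h1 := Subgroup.mem_center_iff.1 hzc t
    rw [this]
    rw [← mul_assoc t t, mul_assoc t (t⁻¹ * y) t, ← h1]
    simp [mul_assoc]
  have hz1 : (t⁻¹ * y) ^ p ^ (a + b) = 1 := by
    rw [(hcomm.inv_left).mul_pow, inv_pow]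
    have h1 : t ^ p ^ (a + b) = 1 := by
      rw [pow_add, mul_comm, pow_mul, hb', one_pow]
    have h2 : y ^ p ^ (a + b) = 1 := by
      rw [pow_add, pow_mul, hy, one_pow]
    rw [h1, h2]
    simp
  have hzT := mem_sylow_of_central_pElement hTs hzc hz1
  have : y = t * (t⁻¹ * y) := by group
  rw [this]
  exact T.mul_mem ht hzT

set_option maxHeartbeats 1000000 in
/-- Models pass to central quotients. -/
theorem constrained_quotient_central {T : Subgroup L} (hTs : ∃ Syl : Sylow p L, (Syl : Subgroup L) = T)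
    (Z : Subgroup L) [Z.Normal] (hZ : Z ≤ Subgroup.center L) {M : Type u} [Group M] {ι : T →* M}
    (hM : (groupFusionSystem T).IsModel p M ι) :
    (groupFusionSystem (T.map (QuotientGroup.mk' Z))).IsConstrained p := by
  classical
  have hTp : IsPGroup p T := by
    obtain ⟨S, rfl⟩ := hTs
    exact S.isPGroup'
  have hModel := hM
  obtain ⟨hfin, hreal, ⟨TM, hTM⟩, hC⟩ := hM
  have hVn0 := isNormal_central_group (T := T) hZ
  have hVle := IsModel.isNormal_le hModel hVn0 hTp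
  let V : Subgroup M := ((Z ⊓ T).subgroupOf T).map ι
  have hVO : V ≤ pCore p M := by
    rintro _ ⟨t, ht, rfl⟩
    exact (mem_preimageAlong.1 (hVle (Subgroup.mem_subgroupOf.1 ht))).2
  have hOle : pCore p M ≤ ι.range := hTM ▸ Lib.Core.pCore_le_sylow TM
  have hcent : ∀ t : T, (t : L) ∈ Z → ∀ m : M, m * ι t * m⁻¹ = ι t := by
    intro t ht m
    have hsub : (Z ⊓ T) ≤ T := inf_le_right
    obtain ⟨φ, hφ, hφv⟩ := IsRealizedBy.exists_hom hreal hsub m (fun x => by
      apply hOle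
      refine (Lib.Core.pCore_normal _ _).conj_mem _ (hVO ⟨⟨x, hsub x.2⟩, Subgroup.mem_subgroupOf.2 x.2, rfl⟩) m)
    obtain ⟨hφS, hφe⟩ := hφv ⟨t, ht, t.2⟩
    obtain ⟨-, -, g, hg⟩ := hφ
    have h1 : φ ⟨t, ht, t.2⟩ = t := by
      rw [hg]
      show g * (t : L) * g⁻¹ = t
      rw [Subgroup.mem_center_iff.1 (hZ ht) g]; group
    have h2 : (⟨φ ⟨t, ht, t.2⟩, hφS⟩ : T) = t := Subtype.ext h1
    rw [h2] at hφe
    exact hφe.symm
  have hVn : V.Normal := by
    refine ⟨?_⟩
    rintro _ ⟨t, ht, rfl⟩ m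
    rw [hcent t (Subgroup.mem_subgroupOf.1 ht).1 m]
    exact ⟨t, ht, rfl⟩
  let Tb : Subgroup (L ⧸ Z) := T.map (QuotientGroup.mk' Z)
  let π : T →* Tb := (QuotientGroup.mk' Z).subgroupMap T
  have hπ : Function.Surjective π := (QuotientGroup.mk' Z).subgroupMap_surjective T
  have hker : π.ker ≤ ((QuotientGroup.mk' V).comp ι).ker := by
    intro t ht
    have h1 : (t : L) ∈ Z := by
      have : π t = 1 := ht
      have h2 : (QuotientGroup.mk' Z (t : L)) = 1 := congrArg Subtype.val this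
      exact (QuotientGroup.eq_one_iff _).1 h2
    have h3 : ι t ∈ V := ⟨t, Subgroup.mem_subgroupOf.2 ⟨h1, t.2⟩, rfl⟩
    exact (QuotientGroup.eq_one_iff _).2 h3
  let ιb : Tb →* M ⧸ V := (MonoidHom.liftOfSurjective π hπ) ⟨(QuotientGroup.mk' V).comp ι, hker⟩
  have hιb : ∀ t : T, ιb (π t) = QuotientGroup.mk' V (ι t) := fun t =>
    MonoidHom.liftOfRightInverse_comp_apply _ _ _ _ _
  have hinj : Function.Injective ιb := by
    rw [injective_iff_map_eq_one]
    intro y hy
    obtain ⟨t, rfl⟩ := hπ y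
    rw [hιb] at hy
    have h1 : ι t ∈ V := (QuotientGroup.eq_one_iff _).1 hy
    obtain ⟨v, hv, hvt⟩ := h1
    have hvt2 : v = t := hreal.1 hvt
    subst hvt2
    have h2 : (v : L) ∈ Z := (Subgroup.mem_subgroupOf.1 hv).1
    apply Subtype.ext
    exact (QuotientGroup.eq_one_iff _).2 h2
  have hModelBar : (groupFusionSystem Tb).IsModel p (M ⧸ V) ιb := by
    refine ⟨inferInstance, ⟨hinj, fun Pb hPb φb hφb => ?_⟩, ⟨TM.mapSurjective (QuotientGroup.mk'_surjective V), ?_⟩, ?_⟩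
    · let P : Subgroup L := (Pb.comap (QuotientGroup.mk' Z)) ⊓ T
      have hPT : P ≤ T := inf_le_right
      have hPmem : ∀ x : P, QuotientGroup.mk' Z (x : L) ∈ Pb := fun x => x.2.1
      have hlift : ∀ y : Pb, ∃ x : P, QuotientGroup.mk' Z (x : L) = y := by
        intro y
        obtain ⟨x, hx, e⟩ := hPb y.2
        refine ⟨⟨x, ?_, hx⟩, e⟩
        show QuotientGroup.mk' Z x ∈ Pb
        rw [e]
        exact y.2
      constructor
      · rintro ⟨-, -, gb, hg⟩
        obtain ⟨g, rfl⟩ := QuotientGroup.mk'_surjective Z gb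
        have hv : ∀ x : P, g * (x : L) * g⁻¹ ∈ T := by
          intro x
          have hx1 : QuotientGroup.mk' Z (g * x * g⁻¹) ∈ T.map (QuotientGroup.mk' Z) := by
            have h3 := hφb ⟨QuotientGroup.mk' Z x, hPmem x⟩
            rw [hg] at h3
            rw [map_mul, map_mul, map_inv]
            exact h3
          obtain ⟨k, hk⟩ := hTp ⟨x, hPT x.2⟩
          have hk' : (x : L) ^ p ^ k = 1 := congrArg Subtype.val hk
          refine mem_of_mk_mem hTs hZ (a := k) ?_ hx1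
          rw [conj_pow, hk']
          simp
        have hmem : conjHom P g ∈ (groupFusionSystem T).Hom P := ⟨hPT, hv, g, fun _ => rfl⟩
        obtain ⟨m, hm⟩ := (hreal.2 P hPT (conjHom P g) hv).1 hmem
        refine ⟨QuotientGroup.mk' V m, fun y => ?_⟩
        obtain ⟨x, hx⟩ := hlift y
        have e1 : (⟨φb y, hφb y⟩ : Tb) = π ⟨g * x * g⁻¹, hv x⟩ := by
          apply Subtype.ext
          show φb y = QuotientGroup.mk' Z (g * x * g⁻¹)
          rw [hg, ← hx, map_mul, map_mul, map_inv]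
        have e2 : (⟨y, hPb y.2⟩ : Tb) = π ⟨x, hPT x.2⟩ := Subtype.ext hx.symm
        rw [e1, e2, hιb, hιb]
        have h4 := hm x
        have h5 : ι ⟨g * x * g⁻¹, hv x⟩ = m * ι ⟨x, hPT x.2⟩ * m⁻¹ := h4
        rw [h5, map_mul, map_mul, map_inv]
      · rintro ⟨mb, hm⟩
        obtain ⟨m, rfl⟩ := QuotientGroup.mk'_surjective V mb
        have hrange : ∀ x : P, m * ι ⟨x, hPT x.2⟩ * m⁻¹ ∈ ι.range := by
          intro x
          have h1 := hm ⟨QuotientGroup.mk' Z x, hPmem x⟩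
          obtain ⟨t, ht⟩ := hπ ⟨φb ⟨QuotientGroup.mk' Z x, hPmem x⟩, hφb _⟩
          have e2 : (⟨QuotientGroup.mk' Z x, hPb (hPmem x)⟩ : Tb) = π ⟨x, hPT x.2⟩ := rfl
          have h1' : ιb ⟨φb ⟨QuotientGroup.mk' Z x, hPmem x⟩, hφb _⟩ = QuotientGroup.mk' V m * ιb (π ⟨x, hPT x.2⟩) * (QuotientGroup.mk' V m)⁻¹ := h1
          rw [← ht, hιb, hιb, ← map_inv, ← map_mul, ← map_mul] at h1'
          have h3 : (ι t)⁻¹ * (m * ι ⟨x, hPT x.2⟩ * m⁻¹) ∈ V := QuotientGroup.eq.1 h1'
          obtain ⟨v, -, hv⟩ := h3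
          refine ⟨t * v, ?_⟩
          rw [map_mul, hv]
          group
        obtain ⟨φ, hφ, hφv⟩ := IsRealizedBy.exists_hom hreal hPT m hrange
        have hφ0 := hφ
        obtain ⟨-, hφT, g, hg⟩ := hφ
        refine ⟨hPb, hφb, QuotientGroup.mk' Z g, fun y => ?_⟩
        obtain ⟨x, hx⟩ := hlift y
        obtain ⟨hxS, hxe⟩ := hφv x
        have e1 : ιb ⟨φb y, hφb y⟩ = ιb (π ⟨φ x, hxS⟩) := by
          have e2 : (⟨y, hPb y.2⟩ : Tb) = π ⟨x, hPT x.2⟩ := Subtype.ext hx.symm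
          rw [hιb, hxe]
          have h1 := hm y
          rw [e2, hιb] at h1
          rw [h1, map_mul, map_mul, map_inv]
        have e3 := hinj e1
        have e4 : φb y = QuotientGroup.mk' Z (φ x) := congrArg Subtype.val e3
        rw [e4, hg, ← hx, map_mul, map_mul, map_inv]
    · rw [Sylow.coe_mapSurjective, hTM]
      ext y
      constructor
      · rintro ⟨_, ⟨t, rfl⟩, rfl⟩
        exact ⟨π t, hιb t⟩
      · rintro ⟨b, rfl⟩
        obtain ⟨t, rfl⟩ := hπ b
        exact ⟨ι t, ⟨t, rfl⟩, (hιb t).symm⟩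
    · intro ub hub
      obtain ⟨u, rfl⟩ := QuotientGroup.mk'_surjective V ub
      have hO : (pCore p M).map (QuotientGroup.mk' V) ≤ pCore p (M ⧸ V) := by
        refine Lib.Core.le_pCore ?_ ?_
        · exact (Lib.Core.pCore_normal _ _).map _ (QuotientGroup.mk'_surjective V)
        · exact (Lib.Core.pCore_isPGroup p M).map _
      have hu := mem_pCore_of_stable hVn hVO hC (u := u)
        (by
          rintro _ ⟨t, ht, rfl⟩
          exact hcent t (Subgroup.mem_subgroupOf.1 ht).1 u)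
        (by
          intro x hx
          have h1 : QuotientGroup.mk' V x ∈ pCore p (M ⧸ V) := hO ⟨x, hx, rfl⟩
          have h2 := Subgroup.mem_centralizer_iff.1 hub _ h1
          refine (QuotientGroup.eq_one_iff _).1 ?_
          show QuotientGroup.mk' V (u * x * u⁻¹ * x⁻¹) = 1
          rw [map_mul, map_mul, map_mul, map_inv, map_inv, ← h2]
          group)
      exact hO ⟨u, hu, rfl⟩
  have hTbp : IsPGroup p Tb := hTp.map _
  have : Finite Tb := inferInstance
  exact IsModel.isConstrained hTbp hModelBar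

end Quot

/-- `S5147`. -/
theorem component_quotient_constrained {G : Type u} [Group G] [Finite G] {p : ℕ} [Fact p.Prime] (S : Sylow p G)
    (hF : (groupFusionSystem (S : Subgroup G)).IsConstrained p) {L : Subgroup G} (hL : L.IsSubnormal) :
    (groupFusionSystem (((S : Subgroup G).subgroupOf L).map (QuotientGroup.mk' (Subgroup.center L)))).IsConstrained p := by
  obtain ⟨M, iM, ι, hM⟩ := subnormal_model S hF hL
  refine constrained_quotient_central ?_ _ le_rfl hM
  obtain ⟨⟨R, hR⟩, -⟩ := fH_constrained_of_subnormal S hF hL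
  refine ⟨R, ?_⟩
  rw [hR]
  ext x
  simp [Subgroup.mem_subgroupOf]

end Cfsg.Agent.Lib.Fusion
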