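import Cfsg.Agent.Lib.Fusion.Solvable
import Cfsg.Agent.Lib.Fusion.PrimeIndex
import Cfsg.Agent.Lib.Fusion.LiftUse
import Cfsg.Agent.Lib.Fusion.FactorSat
import Mathlib

/-! # Solvability of extensions of fusion systems -/

set_option autoImplicit false
set_option linter.unusedSectionVars false
set_option linter.unusedVariables false

namespace Cfsg.Agent.Lib.Fusion

open Cfsg Cfsg.FusionSystem
open scoped commutatorElement

universe u v

variable {Ω : Type u} [Group Ω] {S T : Subgroup Ω} {F : FusionSystem S} {E : FusionSystem T} {Ω' : Type v} [Group Ω']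
  {S' : Subgroup Ω'} {θ : S →* Ω'} {D : FusionSystem S'} {p : ℕ} [Fact p.Prime]

/-- The preimage of a strongly closed subgroup under a factor map modulo a strongly closed subgroup. -/
theorem stronglyClosed_preimage' [Finite S] (hS : IsPGroup p S) (hF : F.IsSaturated p) (hRs : F.StronglyClosed T)
    (hE : F.IsFactorSystem T θ D) {Q' : Subgroup Ω'} (hQ' : D.StronglyClosed Q') : F.StronglyClosed (preimageAlong θ Q') := by
  obtain ⟨hle, hker, hS', hiff⟩ := id hE
  refine ⟨preimageAlong_le Q', fun U hU φ hφ x => ?_⟩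
  obtain ⟨ψ, hψ, hψv⟩ := exists_lift hS hF hRs hφ
  have hUS : U ≤ S := hom_le F hφ
  have hsupS : U ⊔ T ≤ S := sup_le hUS hle
  have hsupQ : U ⊔ T ≤ preimageAlong θ Q' := sup_le hU (le_preimageAlong hker hle _)
  have hpre : preimageAlong θ (imageAlong θ (U ⊔ T)) = U ⊔ T := IsFactorSystem.preimage_image hE le_sup_right hsupS
  have hψ' := res_mem F hψ hpre.le
  obtain ⟨φ', hind⟩ := exists_induced hRs hker hS' (imageAlong_le hE (U ⊔ T)) hψ'
  have hφ' : φ' ∈ D.Hom (imageAlong θ (U ⊔ T)) := (hiff _ φ').2 ⟨imageAlong_le hE _, _, hψ', hind⟩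
  have himQ : imageAlong θ (U ⊔ T) ≤ Q' := by
    rintro _ ⟨s, hs, rfl⟩
    exact (mem_preimageAlong.1 (hsupQ (Subgroup.mem_subgroupOf.1 hs))).2
  have hxs : (x : Ω) ∈ U ⊔ T := Subgroup.mem_sup_left x.2
  have hxpre : (x : Ω) ∈ preimageAlong θ (imageAlong θ (U ⊔ T)) := hpre.ge hxs
  have hxS : (x : Ω) ∈ S := hUS x.2
  have hy : θ ⟨x, hxS⟩ ∈ imageAlong θ (U ⊔ T) := ⟨⟨x, hxS⟩, Subgroup.mem_subgroupOf.2 hxs, rfl⟩
  have hφS : φ x ∈ S := hom_val F hφ x
  have hψS : ψ ⟨x, hxs⟩ ∈ S := hom_val F hψ _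
  have h1 := inducedAlong_val hind ⟨x, hxpre⟩ hxS ⟨_, hy⟩ rfl (by
    show ψ _ ∈ S
    exact hom_val F hψ _)
  have h2 := hQ'.2 _ himQ φ' hφ' ⟨_, hy⟩
  rw [h1] at h2
  have h3 : θ ⟨ψ ⟨x, hxs⟩, hψS⟩ ∈ Q' := h2
  have h4 : ((⟨φ x, hφS⟩ : S)⁻¹ * ⟨ψ ⟨x, hxs⟩, hψS⟩ : S).1 ∈ T := hψv x
  have h5 := (hker _).2 h4
  rw [map_mul, map_inv, inv_mul_eq_one] at h5
  refine mem_preimageAlong.2 ⟨hφS, ?_⟩
  rw [h5]
  exact h3

theorem comm_preimage {Q₁ Q₂ : Subgroup Ω'} (h : ⁅Q₂, Q₂⁆ ≤ Q₁) :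
    ⁅preimageAlong θ Q₂, preimageAlong θ Q₂⁆ ≤ preimageAlong θ Q₁ := by
  refine Subgroup.commutator_le.2 fun a ha b hb => ?_
  have haS := preimageAlong_le _ ha
  have hbS := preimageAlong_le _ hb
  obtain ⟨ha0, ha1⟩ := mem_preimageAlong.1 ha
  obtain ⟨hb0, hb1⟩ := mem_preimageAlong.1 hb
  have h5 := h (Subgroup.commutator_mem_commutator ha1 hb1)
  rw [commutatorElement_def, ← map_inv, ← map_inv, ← map_mul, ← map_mul, ← map_mul] at h5
  exact mem_preimageAlong.2 ⟨_, h5⟩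

section Inv

variable {A : Subgroup (MulAut T)}

/-- The translates of strongly closed subgroups of an invariant subsystem are strongly closed. -/
theorem sc_imgS (hinv : E.IsInvariantIn F) {U : Subgroup Ω} (hU : E.StronglyClosed U) {γ : MulAut T} (hγ : γ ∈ F.autGroup T) :
    E.StronglyClosed (imgS γ U) := by
  have hUT := hU.1
  refine ⟨imgS_le γ U, fun P hP φ hφ x => ?_⟩
  have hPT : P ≤ T := hom_le E hφ
  obtain ⟨χ, hχ, hv⟩ := hinv.2.2.1 P hPT φ hφ γ⁻¹ (Subgroup.inv_mem _ hγ)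
  have hχ' : χ ∈ E.Hom (imgS γ⁻¹ P) := hχ
  have hle : imgS γ⁻¹ P ≤ U := by
    intro y hy
    obtain ⟨z, hz, rfl⟩ := (mem_imgS hPT).1 hy
    obtain ⟨u, hu, hzu⟩ := (mem_imgS hUT).1 (hP hz)
    rw [← hzu, aExt_inv_apply _ (hUT hu)]
    exact hu
  have hxT := hPT x.2
  have hφx : φ x ∈ T := hom_val E hφ x
  have hm : ((γ⁻¹ ⟨x, hPT x.2⟩ : T) : Ω) ∈ (P.subgroupOf T).map (T.subtype.comp (γ⁻¹).toMonoidHom) :=
    ⟨⟨x, hPT x.2⟩, Subgroup.mem_subgroupOf.2 x.2, rfl⟩
  have h1 := hv x hφx hm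
  have h2 := hU.2 _ hle χ hχ' ⟨_, hm⟩
  refine (mem_imgS hUT).2 ⟨_, h2, ?_⟩
  have h3 : χ ⟨_, hm⟩ = aExt γ⁻¹ (φ x) := by
    rw [aExt_of_mem _ hφx]
    exact h1
  exact (congrArg (aExt γ) h3).trans (aExt_apply_inv _ hφx)

/-- The intersection of all `Aut_F(T)`-translates. -/
def transInf (F : FusionSystem S) (T U : Subgroup Ω) : Subgroup Ω :=
  ⨅ γ : F.autGroup T, imgS (γ : MulAut T) U

theorem mem_transInf {U : Subgroup Ω} {x : Ω} : x ∈ transInf F T U ↔ ∀ γ ∈ F.autGroup T, x ∈ imgS γ U := by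
  unfold transInf
  rw [Subgroup.mem_iInf]
  exact ⟨fun h γ hγ => h ⟨γ, hγ⟩, fun h γ => h γ γ.2⟩

theorem imgS_one (U : Subgroup Ω) (hU : U ≤ T) : imgS (1 : MulAut T) U = U := by
  ext y
  rw [mem_imgS hU]
  constructor
  · rintro ⟨x, hx, rfl⟩
    rw [aExt_one]
    exact hx
  · intro hy
    exact ⟨y, hy, aExt_one y⟩

theorem transInf_le {U : Subgroup Ω} (hU : U ≤ T) : transInf F T U ≤ U := by
  intro x hx
  have := mem_transInf.1 hx 1 (Subgroup.one_mem _)
  rwa [imgS_one U hU] at this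

/-- Intersections of translates of `E`-strongly closed subgroups are `F`-strongly closed. -/
theorem sc_transInf (hinv : E.IsInvariantIn F) {U : Subgroup Ω} (hU : E.StronglyClosed U) :
    F.StronglyClosed (transInf F T U) := by
  have hUT := hU.1
  have hTS := hinv.2.1.1
  refine ⟨(transInf_le hUT).trans (hUT.trans hTS), fun P hP φ hφ x => ?_⟩
  have hPT : P ≤ T := hP.trans ((transInf_le hUT).trans hUT)
  obtain ⟨β, hβ, φ₀, hφ₀, hv⟩ := hinv.2.2.2 P hPT φ hφ
  have hφ₀T : φ₀ x ∈ T := hom_val E hφ₀ x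
  refine mem_transInf.2 fun γ hγ => ?_
  have hδ : β⁻¹ * γ ∈ F.autGroup T := Subgroup.mul_mem _ (Subgroup.inv_mem _ hβ) hγ
  have hsc := sc_imgS hinv hU hδ
  have hle : P ≤ imgS (β⁻¹ * γ) U := fun y hy => mem_transInf.1 (hP hy) _ hδ
  have h1 := hsc.2 P hle φ₀ hφ₀ x
  obtain ⟨u, hu, huv⟩ := (mem_imgS hUT).1 h1
  refine (mem_imgS hUT).2 ⟨u, hu, ?_⟩
  rw [hv x hφ₀T, ← aExt_of_mem β hφ₀T, ← huv, aExt_comp _ _ (hUT hu), aExt_apply_inv _ (aExt_mem _ (hUT hu))]

/-- Sections of the translated chain. -/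
theorem comm_transInf {U₁ U₂ : Subgroup Ω} (hU₁ : U₁ ≤ T) (hU₂ : U₂ ≤ T) (h : ⁅U₂, U₂⁆ ≤ U₁) :
    ⁅transInf F T U₂, transInf F T U₂⁆ ≤ transInf F T U₁ := by
  rw [Subgroup.commutator_le]
  intro a ha b hb
  refine mem_transInf.2 fun γ hγ => ?_
  obtain ⟨a', ha', rfl⟩ := (mem_imgS hU₂).1 (mem_transInf.1 ha γ hγ)
  obtain ⟨b', hb', rfl⟩ := (mem_imgS hU₂).1 (mem_transInf.1 hb γ hγ)
  refine (mem_imgS hU₁).2 ⟨⁅a', b'⁆, h (Subgroup.commutator_mem_commutator ha' hb'), ?_⟩
  have ha1 := hU₂ ha'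
  have hb1 := hU₂ hb'
  rw [commutatorElement_def, commutatorElement_def,
    aExt_mul γ (T.mul_mem (T.mul_mem ha1 hb1) (T.inv_mem ha1)) (T.inv_mem hb1),
    aExt_mul γ (T.mul_mem ha1 hb1) (T.inv_mem ha1), aExt_mul γ ha1 hb1, aExt_inv γ ha1, aExt_inv γ hb1]

theorem transInf_bot : transInf F T (⊥ : Subgroup Ω) = ⊥ :=
  le_bot_iff.1 (transInf_le bot_le)

theorem transInf_top : transInf F T T = T := by
  refine le_antisymm (transInf_le le_rfl) fun x hx => mem_transInf.2 fun γ hγ => ?_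
  refine (mem_imgS le_rfl).2 ⟨aExt γ⁻¹ x, aExt_mem _ hx, aExt_apply_inv _ hx⟩

end Inv

/-- **Solvability and extensions.** -/
theorem isSolvable_iff_of_normal [Finite S] (hS : IsPGroup p S) (hF : F.IsSaturated p) (hE : E.IsNormalIn F p)
    (hD : F.IsFactorSystem T θ D) : F.IsSolvableSystem ↔ (E.IsSolvableSystem ∧ D.IsSolvableSystem) := by
  classical
  have hinv : E.IsInvariantIn F := hE.1.2.2
  have hsc : F.StronglyClosed T := hinv.2.1
  have hTS : T ≤ S := hsc.1
  have hEs : E.IsSaturated p := hE.1.1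
  have : Finite T := finite_of_le hTS
  have hTp : IsPGroup p T := hS.to_le hTS
  have : Finite S' := IsFactorSystem.finite hD
  have hS'p : IsPGroup p S' := IsFactorSystem.isPGroup hS hD
  have hDs : D.IsSaturated p := isSaturated_of_factor hS hF hsc hD
  obtain ⟨hle, hker, hS', hiff⟩ := id hD
  constructor
  · intro hsol
    obtain ⟨m, C, h0, hm, hcl, hmono, hd⟩ := chain_of_solvSys (p := p) _ hS hF (solvSys_of_isSolvable hS hF hsol) le_rfl
    constructor
    · refine SolvSys.isSolvable (solvSys_of_chain (p := p) (n := m) (T := fun i => C i ⊓ T) hTp hEs ?_ ?_ ?_ ?_)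
      · show C 0 ⊓ T = ⊥
        rw [h0, bot_inf_eq]
      · show C m ⊓ T = T
        rw [hm]
        exact inf_eq_right.2 hTS
      · intro i hi
        refine ⟨inf_le_right, fun R hR φ hφ x => ⟨(hcl i hi).2 R (hR.trans inf_le_left) φ (hinv.1 R hφ) x, hom_val E hφ x⟩⟩
      · intro i hi
        refine le_inf (le_trans (Subgroup.commutator_mono inf_le_left inf_le_left) (hd i hi)) ?_
        refine (Subgroup.commutator_le.2 fun a ha b hb => ?_)
        exact T.mul_mem (T.mul_mem (T.mul_mem ha.2 hb.2) (T.inv_mem ha.2)) (T.inv_mem hb.2)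
    · refine SolvSys.isSolvable (solvSys_of_chain (p := p) (n := m) (T := fun i => imageAlong θ (C i)) hS'p hDs ?_ ?_ ?_ ?_)
      · show imageAlong θ (C 0) = ⊥
        rw [h0]
        refine le_bot_iff.1 ?_
        rintro _ ⟨s, hs, rfl⟩
        have : (s : Ω) = 1 := Subgroup.mem_subgroupOf.1 hs
        have hs1 : s = 1 := Subtype.ext this
        rw [hs1, map_one]
        exact Subgroup.one_mem _
      · show imageAlong θ (C m) = S'
        rw [hm, ← hS']
        ext y
        constructor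
        · rintro ⟨s, -, rfl⟩
          exact ⟨s, rfl⟩
        · rintro ⟨s, rfl⟩
          exact ⟨s, Subgroup.mem_subgroupOf.2 s.2, rfl⟩
      · intro i hi
        exact stronglyClosed_image hD (hcl i hi)
      · intro i hi
        refine Subgroup.commutator_le.2 ?_
        rintro _ ⟨a, ha, rfl⟩ _ ⟨b, hb, rfl⟩
        have ha' := Subgroup.mem_subgroupOf.1 ha
        have hb' := Subgroup.mem_subgroupOf.1 hb
        have h1 : (a * b * a⁻¹ * b⁻¹ : S).1 ∈ C i := hd i hi (by
          have := Subgroup.commutator_mem_commutator ha' hb'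
          simpa [commutatorElement_def] using this)
        refine ⟨a * b * a⁻¹ * b⁻¹, Subgroup.mem_subgroupOf.2 h1, ?_⟩
        simp [commutatorElement_def]
  · rintro ⟨h₁, h₂⟩
    obtain ⟨m₁, C₁, h01, hm1, hcl1, hmono1, hd1⟩ := chain_of_solvSys (p := p) _ hTp hEs (solvSys_of_isSolvable hTp hEs h₁) le_rfl
    obtain ⟨m₂, C₂, h02, hm2, hcl2, hmono2, hd2⟩ := chain_of_solvSys (p := p) _ hS'p hDs (solvSys_of_isSolvable hS'p hDs h₂) le_rfl
    have hC₁T : ∀ i, i ≤ m₁ → C₁ i ≤ T := fun i hi => (hcl1 i hi).1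
    have hpre0 : preimageAlong θ (C₂ 0) = T := by
      rw [h02]
      ext x
      constructor
      · intro hx
        have hxS := preimageAlong_le _ hx
        exact (hker ⟨x, hxS⟩).1 (Subgroup.mem_bot.1 (mem_preimageAlong.1 hx).2)
      · intro hx
        exact mem_preimageAlong.2 ⟨hle hx, Subgroup.mem_bot.2 ((hker ⟨x, hle hx⟩).2 hx)⟩
    have hpretop : preimageAlong θ (C₂ m₂) = S := by
      rw [hm2]
      refine le_antisymm (preimageAlong_le _) fun x hx => mem_preimageAlong.2 ⟨hx, ?_⟩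
      rw [← hS']
      exact ⟨_, rfl⟩
    refine SolvSys.isSolvable (solvSys_of_chain (p := p) (n := m₁ + m₂)
      (T := fun i => if i ≤ m₁ then transInf F T (C₁ i) else preimageAlong θ (C₂ (i - m₁))) hS hF ?_ ?_ ?_ ?_)
    · simp only [Nat.zero_le, if_true]
      rw [h01]
      exact transInf_bot
    · by_cases hm0 : m₂ = 0
      · subst hm0
        simp only [add_zero, le_refl, if_true]
        rw [hm1, transInf_top]
        rw [← hpre0]
        exact hpretop
      · have : ¬ m₁ + m₂ ≤ m₁ := by omega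
        simp only [this, if_false]
        rw [Nat.add_sub_cancel_left]
        exact hpretop
    · intro i hi
      by_cases h : i ≤ m₁
      · simp only [h, if_true]
        exact sc_transInf hinv (hcl1 i h)
      · simp only [h, if_false]
        exact stronglyClosed_preimage' hS hF hsc hD (hcl2 _ (by omega))
    · intro i hi
      by_cases h : i + 1 ≤ m₁
      · have h' : i ≤ m₁ := by omega
        simp only [h, h', if_true]
        exact comm_transInf (hC₁T i h') (hC₁T _ h) (hd1 i (by omega))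
      · by_cases h' : i ≤ m₁
        · have hi1 : i = m₁ := by omega
          subst hi1
          simp only [h, h', if_true, if_false]
          rw [hm1, transInf_top]
          have e : i + 1 - i = 1 := by omega
          rw [e]
          by_cases hm2pos : 0 < m₂
          · rw [← hpre0]
            exact comm_preimage (hd2 0 hm2pos)
          · omega
        · simp only [h, h', if_false]
          have e : i + 1 - m₁ = (i - m₁) + 1 := by omega
          rw [e]
          exact comm_preimage (hd2 (i - m₁) (by omega))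

end Cfsg.Agent.Lib.Fusion
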