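import Cfsg.Agent.Lib.Fusion.ConstrSub
import Cfsg.Agent.Lib.Fusion.Group
import Mathlib

/-! # The fusion systems of subnormal subgroups of groups with constrained fusion -/

set_option autoImplicit false
set_option linter.unusedSectionVars false
set_option linter.unusedVariables false

namespace Cfsg.Agent.Lib.Fusion

open Cfsg Cfsg.FusionSystem

universe u

section Step1

variable {G : Type*} [Group G] [Finite G] {p : ℕ} [Fact p.Prime]

theorem fH_constrained_of_subnormal (S : Sylow p G)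
    (hF : (groupFusionSystem (S : Subgroup G)).IsConstrained p) {H : Subgroup G} (hH : H.IsSubnormal) :
    IsSylowIn p ((S : Subgroup G) ⊓ H) H ∧
      (fusionSystemOfSubgroup H ((S : Subgroup G) ⊓ H) inf_le_right).IsConstrained p := by
  suffices h : ∀ T : Subgroup G, T = (S : Subgroup G) ⊓ H → ∀ hTH : T ≤ H,
      IsSylowIn p T H ∧ (fusionSystemOfSubgroup H T hTH).IsConstrained p from
    h _ rfl inf_le_right
  induction hH with
  | top =>
    intro T hT hTH
    have hTS : T = (S : Subgroup G) := by rw [hT]; simp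
    subst hTS
    refine ⟨isSylowIn_of_sylow S, ?_⟩
    rw [groupFusionSystem_eq] at hF
    exact hF
  | step H K hle hSubn hN ih =>
    intro T hT hTH
    obtain ⟨hs1, hc1⟩ := ih _ rfl inf_le_right
    have hRK : (S : Subgroup G) ⊓ K ≤ K := inf_le_right
    have hsT : IsSylowIn p T H := by
      have h1 := IsSylowIn.inf_normal hs1 hRK hle hN
      have e : (S : Subgroup G) ⊓ K ⊓ H = T := by
        rw [hT, inf_assoc, inf_eq_right.2 hle]
      rwa [e] at h1
    refine ⟨hsT, ?_⟩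
    have hTK : T ≤ (S : Subgroup G) ⊓ K := by
      rw [hT]
      exact inf_le_inf_left _ hle
    have hp : IsPGroup p ((S : Subgroup G) ⊓ K : Subgroup G) := S.isPGroup'.to_le inf_le_left
    refine isConstrained_of_subsystem hp hc1 (isSaturated_fH hTH hsT) ?_ ?_
    · rintro P φ ⟨h1, h2, g, hg, h3⟩
      exact ⟨h1.trans hTK, fun x => hTK (h2 x), g, hle hg, h3⟩
    · refine ⟨hTK, fun R hR φ hφ x => ?_⟩
      obtain ⟨h1, h2, g, hg, h3⟩ := hφ
      have hxT : (x : G) ∈ T := hR x.2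
      have hxH : (x : G) ∈ H := hTH hxT
      rw [hT]
      refine ⟨(h2 x).1, ?_⟩
      rw [h3]
      have := hN.conj_mem ⟨x, hle hxH⟩ (Subgroup.mem_subgroupOf.2 hxH) ⟨g, hg⟩
      exact Subgroup.mem_subgroupOf.1 this

end Step1

section Step2

variable {G : Type u} [Group G] {p : ℕ} [Fact p.Prime] {H R : Subgroup G}

/-- Transport of a model from the system of `H` in the ambient group `G` to the system of the group `H` itself. -/
theorem exists_model_subgroupOf [Finite (R ⊓ H : Subgroup G)] (hR : IsPGroup p (R ⊓ H : Subgroup G))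
    (h : (fusionSystemOfSubgroup H (R ⊓ H) inf_le_right).IsConstrained p) :
    ∃ (M : Type u) (_ : Group M) (ι : R.subgroupOf H →* M),
      (groupFusionSystem (R.subgroupOf H)).IsModel p M ι := by
  classical
  obtain ⟨hs, Q, hQn, hQc⟩ := h
  obtain ⟨M, iM, ι, hfin, hreal, ⟨T, hT⟩, hC⟩ := exists_model hR hs hQn hQc
  let j : R.subgroupOf H →* (R ⊓ H : Subgroup G) :=
    { toFun := fun x => ⟨(x : H), Subgroup.mem_subgroupOf.1 x.2, (x : H).2⟩
      map_one' := rfl
      map_mul' := fun _ _ => rfl }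
  have hjinj : Function.Injective j := fun a b hab => by
    apply Subtype.ext
    apply Subtype.ext
    exact congrArg (fun z : (R ⊓ H : Subgroup G) => (z : G)) hab
  have hjsurj : Function.Surjective j := fun y =>
    ⟨⟨⟨y, y.2.2⟩, Subgroup.mem_subgroupOf.2 y.2.1⟩, rfl⟩
  refine ⟨M, iM, ι.comp j, hfin, ⟨hreal.1.comp hjinj, ?_⟩, ⟨T, ?_⟩, hC⟩
  · intro P hP φ hφ
    -- the transported homomorphism
    let e := P.equivMapOfInjective H.subtype H.subtype_injective
    let φ₁ : (P.map H.subtype : Subgroup G) →* G := H.subtype.comp (φ.comp e.symm.toMonoidHom)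
    have hφ₁ : ∀ (x : P), φ₁ ⟨(x : H), ⟨x, x.2, rfl⟩⟩ = (φ x : G) := by
      intro x
      show ((φ (e.symm (e x)) : H) : G) = _
      rw [e.symm_apply_apply]
    have hPle : P.map H.subtype ≤ R ⊓ H := by
      rintro _ ⟨x, hx, rfl⟩
      exact ⟨Subgroup.mem_subgroupOf.1 (hP hx), x.2⟩
    have hφ₁v : ∀ y : (P.map H.subtype : Subgroup G), φ₁ y ∈ R ⊓ H := by
      rintro ⟨_, x, hx, rfl⟩
      have := hφ₁ ⟨x, hx⟩
      have e2 : φ₁ ⟨H.subtype x, ⟨x, hx, rfl⟩⟩ = (φ ⟨x, hx⟩ : G) := this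
      rw [e2]
      exact ⟨Subgroup.mem_subgroupOf.1 (hφ ⟨x, hx⟩), (φ ⟨x, hx⟩).2⟩
    have key := hreal.2 (P.map H.subtype) hPle φ₁ hφ₁v
    constructor
    · rintro ⟨-, -, g, hg⟩
      have hmem : φ₁ ∈ (fusionSystemOfSubgroup H (R ⊓ H) inf_le_right).Hom (P.map H.subtype) := by
        refine ⟨hPle, hφ₁v, g, g.2, ?_⟩
        rintro ⟨_, x, hx, rfl⟩
        have e2 : φ₁ ⟨H.subtype x, ⟨x, hx, rfl⟩⟩ = (φ ⟨x, hx⟩ : G) := hφ₁ ⟨x, hx⟩
        rw [e2, hg]
        rfl
      obtain ⟨m, hm⟩ := key.1 hmem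
      refine ⟨m, fun x => ?_⟩
      have := hm ⟨(x : H), ⟨x, x.2, rfl⟩⟩
      have e3 : (⟨φ₁ ⟨(x : H), ⟨x, x.2, rfl⟩⟩, hφ₁v _⟩ : (R ⊓ H : Subgroup G)) = j ⟨φ x, hφ x⟩ :=
        Subtype.ext (hφ₁ x)
      rw [e3] at this
      exact this
    · rintro ⟨m, hm⟩
      have hmem : φ₁ ∈ (fusionSystemOfSubgroup H (R ⊓ H) inf_le_right).Hom (P.map H.subtype) := by
        apply key.2
        refine ⟨m, ?_⟩
        rintro ⟨_, x, hx, rfl⟩
        have h1 := hm ⟨x, hx⟩
        have e3 : (⟨φ₁ ⟨H.subtype x, ⟨x, hx, rfl⟩⟩, hφ₁v _⟩ : (R ⊓ H : Subgroup G)) =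
            j ⟨φ ⟨x, hx⟩, hφ ⟨x, hx⟩⟩ := Subtype.ext (hφ₁ ⟨x, hx⟩)
        rw [e3]
        exact h1
      obtain ⟨-, -, g, hgH, hg⟩ := hmem
      refine ⟨hP, hφ, ⟨g, hgH⟩, fun x => ?_⟩
      apply Subtype.ext
      have := hg ⟨(x : H), ⟨x, x.2, rfl⟩⟩
      rw [hφ₁ x] at this
      exact this
  · rw [hT]
    ext y
    constructor
    · rintro ⟨t, rfl⟩
      obtain ⟨s, rfl⟩ := hjsurj t
      exact ⟨s, rfl⟩
    · rintro ⟨s, rfl⟩
      exact ⟨j s, rfl⟩

end Step2

theorem isPGroup_subgroupOf_of {G : Type*} [Group G] {p : ℕ} {H R : Subgroup G}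
    (hR : IsPGroup p (R : Subgroup G)) : IsPGroup p (R.subgroupOf H) := by
  intro x
  obtain ⟨k, hk⟩ := hR ⟨(x : H), Subgroup.mem_subgroupOf.1 x.2⟩
  refine ⟨k, ?_⟩
  apply Subtype.ext
  apply Subtype.ext
  have := congrArg (fun z : R => (z : G)) hk
  simpa using this

/-- `S5115`. -/
theorem subnormal_constrained {G : Type u} [Group G] [Finite G] {p : ℕ} [Fact p.Prime] (S : Sylow p G)
    (hF : (groupFusionSystem (S : Subgroup G)).IsConstrained p) {H : Subgroup G} (hH : H.IsSubnormal) :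
    (groupFusionSystem ((S : Subgroup G).subgroupOf H)).IsConstrained p := by
  obtain ⟨-, hc⟩ := fH_constrained_of_subnormal S hF hH
  obtain ⟨M, iM, ι, hM⟩ := exists_model_subgroupOf (S.isPGroup'.to_le inf_le_left) hc
  exact IsModel.isConstrained (isPGroup_subgroupOf_of S.isPGroup') hM

theorem subnormal_model {G : Type u} [Group G] [Finite G] {p : ℕ} [Fact p.Prime] (S : Sylow p G)
    (hF : (groupFusionSystem (S : Subgroup G)).IsConstrained p) {H : Subgroup G} (hH : H.IsSubnormal) :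
    ∃ (M : Type u) (_ : Group M) (ι : (S : Subgroup G).subgroupOf H →* M),
      (groupFusionSystem ((S : Subgroup G).subgroupOf H)).IsModel p M ι := by
  obtain ⟨-, hc⟩ := fH_constrained_of_subnormal S hF hH
  exact exists_model_subgroupOf (S.isPGroup'.to_le inf_le_left) hc

end Cfsg.Agent.Lib.Fusion
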